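import Cfsg.Agent.H8.C7.C
import Cfsg.Agent.H8.M3U
import Cfsg.Agent.H4.Q8.End

/-! The centraliser of `σ` in odd characteristic induces `PSL₂(7)` on the odd part. -/

set_option autoImplicit false
set_option linter.unusedSimpArgs false
set_option linter.unusedSectionVars false
set_option linter.unusedVariables false

namespace Cfsg.Agent.H2.S7

open Matrix Subgroup Cfsg.Agent.H5.T3 Cfsg.Agent.H5.C5 Cfsg.Agent.H7 Cfsg.Agent.H8
open scoped MatrixGroups commutatorElement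

variable {F : Type*} [Field F]

/-- the projective image -/
noncomputable abbrev pp (F : Type*) [Field F] : GL (Fin 3) F →* PGL(3, AlgebraicClosure F) := M3.pj 1

open M3 in
theorem b3 [Finite F] {p : ℕ} (hp : p.Prime) [CharP F p] (h2 : (2 : F) ≠ 0) (H : Subgroup (GL (Fin 3) F))
    [Nontrivial (H.map (pp F))] (hN : NoEA (H.map (pp F))) :
    (∃ P ≤ H, NormG H P ∧ ((∃ g k, IsSL3 P g k) ∨ ∃ g k q, IsSU3 P g k q)) ∨
    (∃ S : Mt (AlgebraicClosure F), Sᵀ = S ∧ S.det ≠ 0 ∧ ∀ A ∈ H, ∃ c : AlgebraicClosure F,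
      (A.1.map (algebraMap F _))ᵀ * S * A.1.map (algebraMap F _) = c • S) ∨
    (IsSimpleGroup (H.map (pp F)) ∧ Nat.card (H.map (pp F)) = 168 ∧
      ∀ r r' : H.map (pp F), IsInv r → IsInv r' → IsConj r r') ∨
    Nonempty (H.map (pp F) ≃* alternatingGroup (Fin 6)) ∨ p = 5 := by
  haveI := Fact.mk hp
  letI := Fintype.ofFinite F
  haveI : Finite (H.map (pp F)) := Finite.of_surjective _ ((pp F).subgroupMap_surjective H)
  have l1 := lift_map H (1 : GL (Fin 3) (AlgebraicClosure F))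
  have i1 := (H.map (pp F)).subtype_injective
  generalize (H.map (pp F)).subtype = ρ at l1 i1
  have key : ∀ S : Subgroup (H.map (pp F)), SN S → ∃ P ≤ H, Lift (ρ.comp S.subtype) P 1 ∧ ⁅P, P⁆ = P ∧
      (S.Normal → NormG H P) ∧ (HB p (ρ.comp S.subtype) ∨ (∃ g F₀, IsSL3 P g F₀) ∨
        ∃ g F₁ q, IsSU3 P g F₁ q) :=
    fun S s => let ⟨P, a, b, c, d⟩ := l1.exists_core i1 s
      ⟨P, a, b, c, d, (b.tri (partA F) (i1.comp S.subtype_injective) s c (c.ge.trans (commutator_le.2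
        fun x _ y _ => show GeneralLinearGroup.det ⁅x, y⁆ = 1 by
          rw [map_commutatorElement, commutatorElement_eq_one_iff_mul_comm, mul_comm])) (Or.inr h2)).imp_right
        (Or.imp_right (Or.resolve_right · fun h => h2 h.1))⟩
  obtain ⟨S, hn, s1, s2⟩ := socle hN fun S s1 s2 a ha => by
    obtain ⟨P, -, b, c, -, h | ⟨_, _, h⟩ | ⟨_, _, _, h⟩⟩ := key S ⟨s1, s2⟩
    exacts [HB.cent i1 h ha, l1.cent i1 b c (absIrr_isSL3 h2 h) ha, l1.cent i1 b c (absIrr_isSU3 h2 h) ha]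
  obtain ⟨P, a, l, c, d, hb | h⟩ := key S ⟨s1, s2⟩
  swap
  · exact Or.inl ⟨P, a, d hn, h⟩
  rcases summ i1 hb with h | ⟨k, κ, μ, hx, ⟨rfl, -, h, -⟩ | ⟨-, ⟨-, ⟨-, h⟩ | h, -⟩ | h⟩⟩
  · obtain ⟨T, t1, t2, t3⟩ := l.conic hb c (d hn) h
    exact Or.inr (Or.inl ⟨T, t1, t2, fun A h => by simpa only [lf_one] using t3 A h⟩)
  · obtain ⟨t, -, ht⟩ := hb.conj_all
    have k : ∀ r : H.map (pp F), IsInv r → IsConj t.1 r := fun r hr => by
      obtain ⟨g, hg⟩ := ht ⟨r, trivial⟩ ⟨Subtype.ext hr.1, fun e => hr.2 (congrArg Subtype.val e)⟩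
      exact isConj_iff.2 ⟨g, congrArg Subtype.val hg⟩
    exact Or.inr (Or.inr (Or.inl ⟨topEquiv.symm.isSimpleGroup, h, fun r r' a b => (k r a).symm.trans (k r' b)⟩))
  exacts [Or.inr (Or.inr (Or.inr (Or.inl h))), Or.inr (Or.inr (Or.inr (Or.inr h.1))),
    Or.inr (Or.inr (Or.inr (Or.inr h.1)))]

variable {M N : Subgroup (GL (Fin 7) F)} {p : ℕ} {ω : F}

theorem Hy.ab3 (h : Hy p ω M) {U f : GL (Fin 3) F} (hU : U.1 = diagonal fun i => ω ^ ![1, 4, 2] i)
    (hf : ∀ i j, f.1 i j ≠ 0) (hf' : f * f = 1) {S : Set (GL (Fin 3) F)} (h1 : ∀ x ∈ S, U * x * U⁻¹ ∈ S)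
    (h2 : ∀ x ∈ S, f * x * f⁻¹ ∈ S) (h3 : ∀ x ∈ S, ∀ y ∈ S, Commute x y) : ∀ x ∈ S, IsScal x.1 := by
  have k : ∀ x ∈ S, x.1.IsDiag := fun x hx i j e => by
    have k1 := comp_mat h.om h.seven _ hU (sp_conj h1) (Submodule.subset_span ⟨x, hx, rfl⟩)
      (6 * ![1, 4, 2] i + ![1, 4, 2] j)
    have k2 : ∀ i j a b : Fin 3, i ≠ j → ((![1, 4, 2] a + 6 * ![1, 4, 2] b +
      (6 * ![1, 4, 2] i + ![1, 4, 2] j)) % 7 = 0 ↔ i = a ∧ j = b) := by decide
    rw [show of _ = single i j (x.1 i j) by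
      ext a b; simp only [of_apply, k2 i j a b e, single_apply]; split_ifs with e <;> simp [e]] at k1
    have := congrFun (congrFun (sp_comm h3 _ k1 _ (sp_conj h2 _ k1)).eq i) i
    rw [inv_eq_of_mul_eq_one_right hf'] at this
    simpa [mul_apply, single_apply, ite_and, e, e.symm, hf] using this
  exact fun x hx => scal_of_diag hf (k x hx) (k _ (h2 x hx))

theorem Hy.no_conic (h : Hy p ω M) {K : Type*} [Field K] [Algebra F K] {S : M3 K} (h1 : Sᵀ = S)
    (h2 : S.det ≠ 0) {c : K} (e : ((diagonal fun i => ω ^ ![1, 4, 2] i).map (algebraMap F K))ᵀ * S *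
      (diagonal fun i => ω ^ ![1, 4, 2] i).map (algebraMap F K) = c • S) : False := by
  rw [diagonal_map (map_zero _), diagonal_transpose] at e
  have k : ∀ i j i' j' : Fin 3, (![1, 4, 2] i + ![1, 4, 2] j + 6 * (![1, 4, 2] i' + ![1, 4, 2] j')) % 7 ≠ 0 →
      S i j * S i' j' = 0 := fun i j i' j' a => by
    have e1 := congrFun (congrFun e i) j
    have e2 := congrFun (congrFun e i') j'
    simp only [mul_diagonal, diagonal_mul, Matrix.smul_apply, smul_eq_mul] at e1 e2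
    refine mul_left_cancel₀ ((_root_.map_ne_zero (algebraMap F K)).2 (h.ne a)) ?_
    simp only [map_sub, pow_add, map_mul]
    linear_combination S i' j' * e1 - S i j * e2
  have s : ∀ i j, S j i = S i j := fun i j => congrFun (congrFun h1 i) j
  rw [det_fin_three, s 0 1, s 0 2, s 1 2] at h2
  exact h2 (by
    linear_combination S 2 2 * k 0 0 1 1 (by decide) - S 1 2 * k 0 0 1 2 (by decide) -
      S 0 1 * k 0 1 2 2 (by decide) + 2 * S 1 2 * k 0 1 0 2 (by decide) - S 0 2 * k 0 2 1 1 (by decide))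

/-- the exclusion of subfield subgroups -/
def NoSL3 (F : Type*) [Field F] : Prop := ∀ {p : ℕ} {ω : F} {M : Subgroup (GL (Fin 7) F)}
  (h : Hy p ω M) (hp : p ≠ 2), ¬ SLin M → ∀ P g k, IsSL3 P g k → P ≤ (ru (h.two hp) M).range →
    NormG (ru (h.two hp) M).range P → False

namespace Hy

variable (h : Hy p ω M) (hp : p ≠ 2)
include h hp

theorem exφ' : ∃ f : CC M, (f * f).1.1 = σ ∧ ru (h.two hp) M f * ru (h.two hp) M f = 1 ∧
    (∀ i j, (ru (h.two hp) M f).1 i j ≠ 0) ∧ (ru (h.two hp) M f).1.det = 1 ∧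
    ∃ c : F, 7 * c ^ 2 = -1 ∧ (rv (h.two hp) M f).1 = c • Φv ω := by
  have h2 := h.two hp
  obtain ⟨f, c, hc, f0, f1, f2⟩ := h.exφ hp
  have e : (f * f).1.1 = σ := by
    rw [coe_mul, Units.val_mul, f0, smul_mul_smul_comm, ΦΦ h.om, smul_smul,
      show c * c * -7 = 1 by linear_combination -hc, one_smul]
  refine ⟨f, e, Units.ext ?_, f1 ▸ h.Φu_ne hc, ?_, c, hc, f2⟩
  · rw [← map_mul, ru, rs'_val, e]; m7x <;> exact half h2
  · have := CC_det h2 f
    rw [h.det _ f.2.1, f2, det_smul, det_Φv h.om, Fintype.card_fin] at this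
    linear_combination -this - (ru h2 M f).1.det * (7 * c ^ 2 - 1) * hc

variable (hn : ¬ SLin M)
include hn

theorem ker_pp (g : CC M) (e : pp F (ru (h.two hp) M g) = 1) :
    ∃ a : F, a ^ 7 = 1 ∧ (g.1.1 = a • 1 ∨ g.1.1 = a • σ) :=
  let ⟨a, ha⟩ := (mem_scalars_iff_isScal _).1 (M3.pj_eq_one.1 e)
  ⟨a, h.kerK hp hn g ha⟩

theorem B (ns : NoSL3 F) : IsSimpleGroup ((ru (h.two hp) M).range.map (pp F)) ∧
    Nat.card ((ru (h.two hp) M).range.map (pp F)) = 168 ∧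
    ∀ r r' : (ru (h.two hp) M).range.map (pp F), M3.IsInv r → M3.IsInv r' → IsConj r r' := by
  have h2 := h.two hp
  haveI := h.finF
  haveI := h.char
  obtain ⟨u, u0, u1, -⟩ := h.exu hp
  obtain ⟨f, -, f1, f2, -⟩ := h.exφ' hp
  let u' : (ru h2 M).range.map (pp F) := ⟨_, _, ⟨u, rfl⟩, rfl⟩
  have o : orderOf u' = 7 := by
    haveI := Fact.mk (by norm_num : Nat.Prime 7)
    refine orderOf_eq_prime (Subtype.ext ?_) fun e => ?_
    · show pp F _ ^ 7 = 1
      rw [← map_pow, show ru h2 M u ^ 7 = 1 from Units.ext (by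
        rw [Units.val_pow_eq_pow_val, u1, diagonal_pow, Units.val_one, ← diagonal_one]
        congr 1; ext i
        simp [← pow_mul, mul_comm _ 7, pow_mul ω 7, h.one7]), map_one]
    · obtain ⟨a, ha⟩ := (mem_scalars_iff_isScal _).1 (M3.pj_eq_one.1 (congrArg Subtype.val e))
      rw [u1] at ha
      have a0 := congrFun (congrFun ha 0) 0
      have a1 := congrFun (congrFun ha 1) 1
      simp at a0 a1
      exact h.ne (k := 1) (l := 4) (by norm_num) (by linear_combination a0 - a1)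
  haveI : Nontrivial ((ru h2 M).range.map (pp F)) := ⟨u', 1, fun e => by simp [e] at o⟩
  refine (b3 h.prime h2 (ru h2 M).range fun Q hQ hc _ => ?_).elim (fun k => ?_) fun k => ?_
  swap
  · obtain ⟨P, a, b, ⟨g, k, c⟩ | ⟨g, k, q, c, -⟩⟩ := k
    · exact (ns h hp hn P g k c a b).elim
    · exact (h.nosq k q c).elim
  swap
  rcases k with ⟨S, a, b, c⟩ | k | ⟨⟨e⟩⟩ | k
  · obtain ⟨c, hc⟩ := c _ ⟨u, rfl⟩
    exact (h.no_conic a b (u1 ▸ hc)).elim
  · exact k
  · have := orderOf_dvd_natCard u'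
    rw [o, Nat.card_congr e.toEquiv, nat_card_alternatingGroup] at this
    simp [Nat.factorial] at this
  · have := h.eleven hp; omega
  let S : Set (GL (Fin 3) F) := {x | ∃ hx : x ∈ (ru h2 M).range, (⟨_, _, hx, rfl⟩ : map (pp F) _) ∈ Q}
  have nm : ∀ w, ∀ x ∈ S, ru h2 M w * x * (ru h2 M w)⁻¹ ∈ S := fun w x ⟨a, b⟩ =>
    ⟨mul_mem (mul_mem ⟨w, rfl⟩ a) (inv_mem ⟨w, rfl⟩), by
      convert hQ.conj_mem _ b ⟨_, _, ⟨w, rfl⟩, rfl⟩ using 1
      exact Subtype.ext (by simp only [map_mul, map_inv]; rfl)⟩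
  have := h.ab3 u1 f2 f1 (nm u) (nm f) (by
    rintro _ ⟨⟨x, rfl⟩, a⟩ _ ⟨⟨y, rfl⟩, b⟩
    have e : pp F (ru h2 M ⁅x, y⁆) = 1 := by
      rw [map_commutatorElement, map_commutatorElement, commutatorElement_eq_one_iff_mul_comm]
      exact congrArg (·.1.1) (hc.1.1 ⟨_, a⟩ ⟨_, b⟩)
    obtain ⟨c, hc⟩ := (mem_scalars_iff_isScal _).1 (M3.pj_eq_one.1 e)
    have c7 := (h.kerK hp hn _ hc).1
    have c3 : (ru h2 M ⁅x, y⁆).1.det = 1 := congrArg Units.val (show GeneralLinearGroup.det _ = 1 by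
      rw [map_commutatorElement, map_commutatorElement, commutatorElement_eq_one_iff_mul_comm, mul_comm])
    rw [hc, det_smul, det_one, mul_one, Fintype.card_fin] at c3
    rw [show c = 1 by linear_combination c7 - c * (c ^ 3 + 1) * c3, one_smul] at hc
    rw [← commutatorElement_eq_one_iff_commute, ← map_commutatorElement]
    exact Units.ext hc)
  refine (eq_bot_iff_forall _).2 ?_
  rintro ⟨_, x, hx, rfl⟩ e
  exact Subtype.ext (M3.pj_eq_one.2 ((mem_scalars_iff_isScal _).2 (this x ⟨hx, e⟩)))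

end Hy

theorem main7_odd (ns : NoSL3 F) (hp : p ≠ 2) : Main7 F p := fun {ω N M} hN hNM hdet hsc => by
  refine or_iff_not_imp_left.2 fun hn => ?_
  have h := hN.mono hNM hdet
  have h2 := h.two hp
  haveI := h.fin
  obtain ⟨b1, b2, b3⟩ := h.B hp hn ns
  obtain ⟨-, b4, -⟩ := hN.B hp (fun e => hn fun Y a => (e Y a).mono hNM) ns
  let π : CC M →* (ru h2 M).range.map (pp F) := ((pp F).comp (ru h2 M)).codRestrict _
    fun x => ⟨_, ⟨x, rfl⟩, rfl⟩
  have πs : Function.Surjective π := by rintro ⟨_, _, ⟨x, rfl⟩, rfl⟩; exact ⟨x, rfl⟩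
  have kr : ∀ x, π x = 1 → ∃ a : F, a ^ 7 = 1 ∧ (x.1.1 = a • 1 ∨ x.1.1 = a • σ) := fun x e =>
    h.ker_pp hp hn x (congrArg Subtype.val e)
  have σ1 : ∀ a : F, (σ : M7 F) ≠ a • 1 := fun a e => by simpa [σ] using congrFun (congrFun e 1) 6
  haveI : Finite ((ru h2 M).range.map (pp F)) := Finite.of_surjective π πs
  refine endgame7 h hsc (fun c hc e => ?_) (fun c hc e c2 => ?_) fun O hO ho c hc e => ?_
  · obtain ⟨_, ⟨s, rfl⟩, hs⟩ := (eq_of_le_of_card_ge (H := (ru h2 N).range.map (pp F))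
      (K := (ru h2 M).range.map (pp F)) (map_mono (by
        rintro _ ⟨x, rfl⟩; exact ⟨⟨x, hNM x.2.1, x.2.2⟩, rfl⟩)) (by rw [b2, b4])).ge
      ⟨_, ⟨⟨c, mem_CC h2 hc e⟩, rfl⟩, rfl⟩
    obtain ⟨a, -, ha⟩ := kr ((⟨s, hNM s.2.1, s.2.2⟩ : CC M)⁻¹ * ⟨c, mem_CC h2 hc e⟩) (by
      rw [map_mul, map_inv, inv_mul_eq_one]; exact Subtype.ext hs)
    have sc : ∀ g ∈ M, g.1 = a • 1 → g ∈ N := fun g hg e =>
      hsc g hg ⟨1, by rw [e]; simp⟩ ⟨1, by rw [e]; simp⟩
    refine (N.mul_mem_cancel_left (N.inv_mem s.2.1)).1 ?_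
    have m : s.1⁻¹ * c ∈ M := mul_mem (inv_mem (hNM s.2.1)) hc
    rcases ha with ha | ha
    · exact sc _ m ha
    · obtain ⟨z, hz, ez⟩ := hN.hσ
      exact (N.mul_mem_cancel_right hz).1 (sc _ (mul_mem m (hNM hz)) (by
        rw [Units.val_mul, show (s.1⁻¹ * c).1 = _ from ha, ez, smul_mul_assoc, σσ]))
  · let x : CC M := ⟨c, mem_CC h2 hc e⟩
    have x2 : x * x = 1 := Subtype.ext (Units.ext c2)
    by_cases e1 : π x = 1
    · obtain ⟨a, a7, ha⟩ := kr x e1
      have : a * a = 1 := by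
        rcases ha with ha | ha <;> rw [show c.1 = _ from ha] at c2 <;>
          simpa [σσ] using congrFun (congrFun c2 0) 0
      rwa [show a = 1 by linear_combination a7 - a * (a ^ 4 + a ^ 2 + 1) * this, one_smul, one_smul] at ha
    obtain ⟨f, f0, f1, f2, -⟩ := h.exφ' hp
    obtain ⟨w, hw⟩ := isConj_iff.1 (b3 (π x) (π f) ⟨by rw [← map_mul, x2, map_one], e1⟩
      ⟨Subtype.ext (show pp F _ * pp F _ = 1 by rw [← map_mul, f1, map_one]), fun e => by
        obtain ⟨a, ha⟩ := (mem_scalars_iff_isScal _).1 (M3.pj_eq_one.1 (congrArg Subtype.val e))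
        exact f2 0 1 (by simp [ha])⟩)
    obtain ⟨w, rfl⟩ := πs w
    obtain ⟨a, -, ha⟩ := kr (f * (w * x * w⁻¹)⁻¹) (by
      rw [map_mul, map_inv, map_mul, map_mul, map_inv, hw, mul_inv_cancel])
    have y2 : (w * x * w⁻¹) * (w * x * w⁻¹) = 1 := by rw [conj_mul, x2]; simp
    generalize w * x * w⁻¹ = y at ha y2
    obtain ⟨k, rfl⟩ : ∃ k, f = k * y := ⟨f * y⁻¹, by group⟩
    rw [mul_inv_cancel_right] at ha
    have cm : y.1.1 * σ = σ * y.1.1 := by
      have := mem_Cm.1 (CCu y.2)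
      rw [ABu, mul_smul_comm, smul_mul_assoc, mul_add, add_mul, mul_one, one_mul] at this
      exact add_left_cancel (smul_right_injective _ (inv_ne_zero h2) this)
    have y3 : y.1.1 * y.1.1 = 1 := congrArg (·.1.1) y2
    refine (σ1 (a * a) ?_).elim
    rw [← f0]
    simp only [coe_mul, Units.val_mul]
    rcases ha with ha | ha <;> rw [ha]
    · simp [y3, smul_smul]
    · simp only [smul_mul_assoc, mul_smul_comm, smul_smul]
      rw [mul_assoc, ← mul_assoc y.1.1, cm, mul_assoc, y3, mul_one, σσ]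
  · let ι : CC M →* M := inclusion inf_le_left
    have e1 : π ⟨c.1, mem_CC h2 c.2 e⟩ = 1 := by
      rcases ((hO.comap ι).map π πs).eq_bot_or_eq_top with k | k
      · exact mem_bot.1 (k.le ⟨_, hc, rfl⟩)
      · have d1 := card_map_dvd (O.comap ι) π
        rw [k, card_top, b2] at d1
        exact absurd (even_iff_two_dvd.2 ((Dvd.dvd.trans (by norm_num) d1).trans
          (card_comap_dvd_of_injective O ι (inclusion_injective _)))) (Nat.not_even_iff_odd.2 ho)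
    obtain ⟨a, a7, ha | ha⟩ := kr _ e1
    · exact ⟨a, ha⟩
    have c7 : (c ^ 7).1.1 = σ := by
      rw [coe_pow, Units.val_pow_eq_pow_val, show c.1.1 = _ from ha, _root_.smul_pow, a7, one_smul,
        pow_succ, show 6 = 2 * 3 from rfl, pow_mul, sq, σσ, one_pow, one_mul]
    have := O.orderOf_dvd_natCard (pow_mem hc 7)
    rw [orderOf_eq_prime (p := 2) (Subtype.ext (Units.ext (by
      rw [sq, coe_mul, Units.val_mul, c7, σσ]; rfl))) fun e => σ1 1 (by rw [← c7, e, one_smul]; rfl)] at this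
    exact absurd (even_iff_two_dvd.2 this) (Nat.not_even_iff_odd.2 ho)

end Cfsg.Agent.H2.S7
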