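import Cfsg.Agent.H5.C5.Blk

/-! The model of the normaliser of `7^{1+2}` in `SL₇(q)`: set-up. -/

set_option autoImplicit false
set_option linter.unusedSimpArgs false
set_option linter.unusedSectionVars false
set_option linter.unusedVariables false

namespace Cfsg.Agent.H2.S7

open Matrix Cfsg.Agent.H5.T3 Cfsg.Agent.H5.C5

variable {F : Type*} [Field F]

abbrev M7 (F : Type*) := Matrix (Fin 7) (Fin 7) F
abbrev M4 (F : Type*) := Matrix (Fin 4) (Fin 4) F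
abbrev M3 (F : Type*) := Matrix (Fin 3) (Fin 3) F
abbrev M2 (F : Type*) := Matrix (Fin 2) (Fin 2) F

def ρ (ω : F) : M7 F :=
  !![1,0,0,0,0,0,0; 0,ω,0,0,0,0,0; 0,0,ω^2,0,0,0,0; 0,0,0,ω^3,0,0,0; 0,0,0,0,ω^4,0,0;
    0,0,0,0,0,ω^5,0; 0,0,0,0,0,0,ω^6]
def τ : M7 F :=
  !![0,0,0,0,0,0,1; 1,0,0,0,0,0,0; 0,1,0,0,0,0,0; 0,0,1,0,0,0,0; 0,0,0,1,0,0,0; 0,0,0,0,1,0,0;
    0,0,0,0,0,1,0]
def τ' : M7 F :=
  !![0,1,0,0,0,0,0; 0,0,1,0,0,0,0; 0,0,0,1,0,0,0; 0,0,0,0,1,0,0; 0,0,0,0,0,1,0; 0,0,0,0,0,0,1;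
    1,0,0,0,0,0,0]
def uu (ω : F) : M7 F :=
  !![1,0,0,0,0,0,0; 0,ω,0,0,0,0,0; 0,0,ω^4,0,0,0,0; 0,0,0,ω^2,0,0,0; 0,0,0,0,ω^2,0,0;
    0,0,0,0,0,ω^4,0; 0,0,0,0,0,0,ω]
def σ : M7 F :=
  !![-1,0,0,0,0,0,0; 0,0,0,0,0,0,-1; 0,0,0,0,0,-1,0; 0,0,0,0,-1,0,0; 0,0,0,-1,0,0,0;
    0,0,-1,0,0,0,0; 0,-1,0,0,0,0,0]
def δ : M7 F :=
  !![1,0,0,0,0,0,0; 0,0,0,0,1,0,0; 0,1,0,0,0,0,0; 0,0,0,0,0,1,0; 0,0,1,0,0,0,0; 0,0,0,0,0,0,1;
    0,0,0,1,0,0,0]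
def δ' : M7 F :=
  !![1,0,0,0,0,0,0; 0,0,1,0,0,0,0; 0,0,0,0,1,0,0; 0,0,0,0,0,0,1; 0,1,0,0,0,0,0; 0,0,0,1,0,0,0;
    0,0,0,0,0,1,0]
def Φ (ω : F) : M7 F :=
  !![1,1,1,1,1,1,1; 1,ω,ω^2,ω^3,ω^4,ω^5,ω^6; 1,ω^2,ω^4,ω^6,ω,ω^3,ω^5; 1,ω^3,ω^6,ω^2,ω^5,ω,ω^4;
    1,ω^4,ω,ω^5,ω^2,ω^6,ω^3; 1,ω^5,ω^3,ω,ω^6,ω^4,ω^2; 1,ω^6,ω^5,ω^4,ω^3,ω^2,ω]
def A0 (F : Type*) [Field F] : Matrix (Fin 7) (Fin 1) F := !![1; 0; 0; 0; 0; 0; 0]
def B0 (F : Type*) [Field F] : Matrix (Fin 1) (Fin 7) F := !![1,0,0,0,0,0,0]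
def A1 (F : Type*) [Field F] : Matrix (Fin 7) (Fin 2) F := !![0,0; 1,0; 0,0; 0,0; 0,0; 0,0; 0,1]
def B1 (F : Type*) [Field F] : Matrix (Fin 2) (Fin 7) F := !![0,1,0,0,0,0,0; 0,0,0,0,0,0,1]
def A2 (F : Type*) [Field F] : Matrix (Fin 7) (Fin 2) F := !![0,0; 0,0; 1,0; 0,0; 0,0; 0,1; 0,0]
def B2 (F : Type*) [Field F] : Matrix (Fin 2) (Fin 7) F := !![0,0,1,0,0,0,0; 0,0,0,0,0,1,0]
def A3 (F : Type*) [Field F] : Matrix (Fin 7) (Fin 2) F := !![0,0; 0,0; 0,0; 0,1; 1,0; 0,0; 0,0]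
def B3 (F : Type*) [Field F] : Matrix (Fin 2) (Fin 7) F := !![0,0,0,0,1,0,0; 0,0,0,1,0,0,0]
def Au (F : Type*) [Field F] : Matrix (Fin 7) (Fin 3) F :=
  !![0,0,0; 1,0,0; 0,1,0; 0,0,-1; 0,0,1; 0,-1,0; -1,0,0]
def Bu (F : Type*) [Field F] : Matrix (Fin 3) (Fin 7) F :=
  !![0,2⁻¹,0,0,0,0,-2⁻¹; 0,0,2⁻¹,0,0,-2⁻¹,0; 0,0,0,-2⁻¹,2⁻¹,0,0]
def Av (F : Type*) [Field F] : Matrix (Fin 7) (Fin 4) F :=
  !![1,0,0,0; 0,1,0,0; 0,0,1,0; 0,0,0,1; 0,0,0,1; 0,0,1,0; 0,1,0,0]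
def Bv (F : Type*) [Field F] : Matrix (Fin 4) (Fin 7) F :=
  !![1,0,0,0,0,0,0; 0,2⁻¹,0,0,0,0,2⁻¹; 0,0,2⁻¹,0,0,2⁻¹,0; 0,0,0,2⁻¹,2⁻¹,0,0]

/-- block matrix for `W₀ = ⟨e₀⟩, W₁ = ⟨e₁, e₆⟩, W₂ = ⟨e₂, e₅⟩, W₃ = ⟨e₄, e₃⟩` -/
def bk (a : F) (X Y Z : M2 F) : M7 F :=
  !![a,0,0,0,0,0,0; 0,X 0 0,0,0,0,0,X 0 1; 0,0,Y 0 0,0,0,Y 0 1,0; 0,0,0,Z 1 1,Z 1 0,0,0;
    0,0,0,Z 0 1,Z 0 0,0,0; 0,0,Y 1 0,0,0,Y 1 1,0; 0,X 1 0,0,0,0,0,X 1 1]

/-- entrywise computation -/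
macro "m7" : tactic => `(tactic|
  simp [← Matrix.ext_iff, Fin.forall_fin_succ, ρ, τ, τ', uu, σ, δ, δ', Φ, A0, B0, A1, B1, A2, B2, A3, B3,
    Au, Bu, Av, Bv, bk, Matrix.mul_apply, Matrix.vecMul, dotProduct, Fin.sum_univ_succ,
    Matrix.transvection, Matrix.single_apply, Matrix.one_apply])

/-- entrywise computation, one goal for each entry -/
macro "m7x" : tactic => `(tactic| (ext i j; fin_cases i <;> fin_cases j <;>
  simp [ρ, τ, τ', uu, σ, δ, δ', Φ, A0, B0, A1, B1, A2, B2, A3, B3, Au, Bu, Av, Bv, bk,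
    Matrix.mul_apply, Matrix.vecMul, dotProduct, Fin.sum_univ_succ]))

theorem BA0 : (B0 F * A0 F : Matrix (Fin 1) (Fin 1) F) = 1 := by m7
theorem BA1 : (B1 F * A1 F : M2 F) = 1 := by m7
theorem BA2 : (B2 F * A2 F : M2 F) = 1 := by m7
theorem BA3 : (B3 F * A3 F : M2 F) = 1 := by m7
theorem sum4 : (A0 F * B0 F + A1 F * B1 F + A2 F * B2 F + A3 F * B3 F : M7 F) = 1 := by m7
theorem δδ' : (δ * δ' : M7 F) = 1 := by m7
theorem δ'δ : (δ' * δ : M7 F) = 1 := by m7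
theorem δδ : (δ * δ : M7 F) = δ' := by m7
theorem ττ' : (τ * τ' : M7 F) = 1 := by m7
theorem σσ : (σ * σ : M7 F) = 1 := by m7
theorem ρ_eq (ω : F) : ρ ω = diagonal fun i : Fin 7 => ω ^ (i : ℕ) := by m7x
theorem uu_eq (ω : F) : uu ω = diagonal fun i : Fin 7 => ω ^ ((i : ℕ) ^ 2 % 7) := by m7x

/-- `ω` is a primitive seventh root of unity (when `7 ≠ 0`) -/
abbrev Om7 (ω : F) : Prop := ω ^ 6 + ω ^ 5 + ω ^ 4 + ω ^ 3 + ω ^ 2 + ω + 1 = 0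

theorem om7 {ω : F} (h : Om7 ω) : ω ^ 7 = 1 := by linear_combination (ω - 1) * h

theorem om0 {ω : F} (h : Om7 ω) : ω ≠ 0 := by rintro rfl; simp [Om7] at h

theorem om_pow {ω : F} (h : Om7 ω) (h7 : (7 : F) ≠ 0) {k : ℕ} (hk : k % 7 ≠ 0) : ω ^ k ≠ 1 := by
  intro e
  have := pow_gcd_eq_one.2 ⟨e, om7 h⟩
  rw [show Nat.gcd k 7 = 1 from Nat.coprime_comm.1 ((Nat.Prime.coprime_iff_not_dvd (by norm_num)).2
    fun d => hk (Nat.mod_eq_zero_of_dvd d)), pow_one] at this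
  subst this
  exact h7 (by linear_combination h)

theorem om_ne {ω : F} (h : Om7 ω) (h7 : (7 : F) ≠ 0) {k l : ℕ} (hk : (k + 6 * l) % 7 ≠ 0) :
    ω ^ k ≠ ω ^ l := fun e => om_pow h h7 hk (by
  rw [pow_add, e, ← pow_add, show l + 6 * l = 7 * l by ring, pow_mul, om7 h, one_pow])

theorem ΦΦ {ω : F} (h : Om7 ω) : Φ ω * Φ ω = (-7 : F) • σ := by m7x <;> grind

/-- the standing hypotheses on the overgroup `M` -/
structure Hy (p : ℕ) (ω : F) (M : Subgroup (GL (Fin 7) F)) : Prop where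
  prime : p.Prime
  char : CharP F p
  finF : Finite F
  cd : (Nat.card F = p ∧ p % 7 = 1) ∨ (Nat.card F = p ^ 3 ∧ (p % 7 = 2 ∨ p % 7 = 4))
  om : Om7 ω
  hρ : InM M (ρ ω)
  hτ : InM M τ
  hu : InM M (uu ω)
  hσ : InM M σ
  hδ : InM M δ
  hφ : ∃ c : F, 7 * c ^ 2 = -1 ∧ InM M (c • Φ ω)
  det : ∀ g ∈ M, g.1.det = 1

/-- the core maximality statement -/
def Main7 (F : Type*) [Field F] (p : ℕ) : Prop := ∀ {ω : F} {N M : Subgroup (GL (Fin 7) F)},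
  Hy p ω N → N ≤ M → (∀ g ∈ M, g.1.det = 1) → (∀ g ∈ M, (∃ a : F, g.1 * ρ ω = a • (ρ ω * g.1)) →
    (∃ b : F, g.1 * τ = b • (τ * g.1)) → g ∈ N) → SLin M ∨ M ≤ N

theorem conj_tv {P Q : M7 F} (h : P * Q = 1) (f : Fin 7 → Fin 7) {e : F} (he : e * e = 1)
    (h1 : ∀ a i, P a i = if f i = a then e else 0) (h2 : ∀ a i, Q i a = if f i = a then e else 0)
    (i j : Fin 7) (c : F) : P * transvection i j c * Q = transvection (f i) (f j) c := by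
  rw [transvection, mul_add, add_mul, Matrix.mul_one, h, transvection]
  congr 1
  ext a b
  have : (P * single i j c * Q : M7 F) a b = P a i * c * Q j b := by
    simp [Matrix.mul_apply, single_apply, ite_and]
  rw [this, h1, h2, single_apply]
  simp only [ite_and]
  split_ifs <;> simp [mul_right_comm, he]

namespace Hy

variable {p : ℕ} {ω : F} {M : Subgroup (GL (Fin 7) F)} (h : Hy p ω M)
include h

theorem mono {M' : Subgroup (GL (Fin 7) F)} (hM : M ≤ M') (hd : ∀ g ∈ M', g.1.det = 1) : Hy p ω M' :=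
  ⟨h.prime, h.char, h.finF, h.cd, h.om, h.hρ.mono hM, h.hτ.mono hM, h.hu.mono hM, h.hσ.mono hM,
    h.hδ.mono hM, let ⟨c, hc, k⟩ := h.hφ; ⟨c, hc, k.mono hM⟩, hd⟩

theorem fin : Finite (GL (Fin 7) F) := by haveI := h.finF; infer_instance

theorem ne_zero {n : ℕ} (hn : n.Prime) (hne : p ≠ n) : (n : F) ≠ 0 := fun e =>
  haveI := h.char
  hne ((Nat.prime_dvd_prime_iff_eq h.prime hn).1 ((CharP.cast_eq_zero_iff F p n).1 e))

theorem seven : (7 : F) ≠ 0 := by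
  exact_mod_cast h.ne_zero (n := 7) (by norm_num) (by rcases h.cd with k | k <;> omega)

theorem two (hp : p ≠ 2) : (2 : F) ≠ 0 := by exact_mod_cast h.ne_zero Nat.prime_two hp

theorem eleven (hp : p ≠ 2) : 11 ≤ p := by
  have := h.prime
  have := h.cd
  by_contra! k
  interval_cases p <;> first | omega | norm_num at *

theorem card8 (hp : p = 2) : Nat.card F = 8 := by have := h.cd; subst hp; omega

theorem one7 : ω ^ 7 = 1 := om7 h.om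

theorem ne {k l : ℕ} (hk : (k + 6 * l) % 7 ≠ 0) : ω ^ k - ω ^ l ≠ 0 :=
  sub_ne_zero.2 (om_ne h.om h.seven hk)

theorem card_sub (k : Subfield F) : k = ⊤ ∨ Nat.card k = p ∧ Nat.card F = p ^ 3 := by
  haveI := h.finF
  haveI := h.char
  haveI := Fact.mk h.prime
  have e := Module.natCard_eq_pow_finrank (K := k) (V := F)
  letI := Fintype.ofFinite k
  obtain ⟨n, -, hn⟩ := FiniteField.card k p
  rw [← Nat.card_eq_fintype_card] at hn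
  have t : Module.finrank k F = 1 → k = ⊤ := fun e1 => by
    rw [e1, pow_one] at e
    exact SetLike.coe_injective (Set.eq_univ_of_forall fun x =>
      ((Function.Injective.bijective_of_nat_card_le Subtype.val_injective e.le).2 x).elim
        fun y hy => hy ▸ y.2)
  rw [hn, ← pow_mul] at e
  rcases h.cd with ⟨k1, -⟩ | ⟨k1, -⟩
  · exact Or.inl (t (Nat.eq_one_of_mul_eq_one_left (Nat.pow_right_injective h.prime.two_le
      (e.symm.trans (k1.trans (pow_one p).symm)))))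
  · have e3 := Nat.pow_right_injective h.prime.two_le (e.symm.trans k1)
    rcases (Nat.dvd_prime Nat.prime_three).1 (Dvd.intro _ e3) with e4 | e4
    · exact Or.inr ⟨by rw [hn, e4, pow_one], k1⟩
    · exact Or.inl (t (by rw [e4] at e3; omega))

theorem gen (k : Subfield F) (hk : ω + ω ^ 6 ∈ k) : k = ⊤ := by
  refine (h.card_sub k).resolve_right fun ⟨k1, k2⟩ => ?_
  haveI := h.finF
  haveI := h.char
  haveI := Fact.mk h.prime
  letI := Fintype.ofFinite k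
  have e : (ω + ω ^ 6) ^ p = ω + ω ^ 6 := by
    have := FiniteField.pow_card (⟨_, hk⟩ : k)
    rw [← Nat.card_eq_fintype_card, k1] at this
    exact congrArg Subtype.val this
  have w := h.one7
  rw [add_pow_char, ← pow_mul, pow_eq_pow_mod p w, pow_eq_pow_mod (6 * p) w, Nat.mul_mod] at e
  rcases h.cd with ⟨k3, -⟩ | ⟨-, k3 | k3⟩
  · have := Nat.pow_right_injective h.prime.two_le (k2.symm.trans (k3.trans (pow_one p).symm))
    omega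
  · rw [k3] at e
    exact mul_ne_zero (h.ne (k := 2) (l := 1) (by norm_num)) (h.ne (k := 0) (l := 4) (by norm_num))
      (by linear_combination e)
  · rw [k3] at e
    exact mul_ne_zero (h.ne (k := 4) (l := 1) (by norm_num)) (h.ne (k := 0) (l := 2) (by norm_num))
      (by linear_combination e)

theorem nosq (k : Subfield F) (q : ℕ) : Nat.card k ≠ q ^ 2 := fun e => by
  have k1 : ∀ n, p ^ (2 * n + 1) ≠ q ^ 2 := fun n e => by
    have := congrArg (·.factorization p) e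
    simp [h.prime.factorization_pow, h.prime.factorization_self] at this
    omega
  rcases h.card_sub k with rfl | ⟨k2, -⟩
  · rw [Nat.card_congr Subfield.topEquiv.toEquiv] at e
    rcases h.cd with ⟨k3, -⟩ | ⟨k3, -⟩
    · exact k1 0 (by simpa [k3] using e)
    · exact k1 1 (k3 ▸ e)
  · exact k1 0 (by simpa [k2] using e)

theorem hδ' : InM M δ' := h.hδ.inv δδ'

theorem cτ {X : M7 F} (hX : InM M X) : InM M (τ * X * τ') := (h.hτ.mul hX).mul (h.hτ.inv ττ')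

theorem cδ {X : M7 F} (hX : InM M X) : InM M (δ * X * δ') := (h.hδ.mul hX).mul h.hδ'

theorem cσ {X : M7 F} (hX : InM M X) : InM M (σ * X * σ) := (h.hσ.mul hX).mul h.hσ

/-- one full root subgroup gives everything -/
theorem big {i j : Fin 7} (hij : i ≠ j) (hX : ∀ c, InM M (transvection i j c)) : SLin M := by
  let P : Fin 7 → Fin 7 → Prop := fun i j => ∀ c, InM M (transvection i j c)
  have k : ∀ f : Fin 7 → Fin 7, (∀ i j, P i j → P (f i) (f j)) → ∀ (a : ℕ) i j,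
      P i j → P (f^[a] i) (f^[a] j) := fun f hf a => by
    induction a with
    | zero => exact fun _ _ h => h
    | succ a ih => exact fun i j h => ih _ _ (hf i j h)
  have k1 := k (· + 1) fun i j a c => (h.cτ (a c)).congr (conj_tv ττ' (· + 1) (one_mul 1)
    (fun a i => by fin_cases a <;> fin_cases i <;> simp [τ])
    (fun a i => by fin_cases a <;> fin_cases i <;> simp [τ']) i j c)
  have k2 := k (2 * ·) fun i j a c => (h.cδ (a c)).congr (conj_tv δδ' (2 * ·) (one_mul 1)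
    (fun a i => by fin_cases a <;> fin_cases i <;> simp +decide [δ])
    (fun a i => by fin_cases a <;> fin_cases i <;> simp +decide [δ']) i j c)
  have k3 := k (6 * ·) fun i j a c => (h.cσ (a c)).congr (conj_tv σσ (6 * ·) (e := -1) (by simp)
    (fun a i => by fin_cases a <;> fin_cases i <;> simp +decide [σ])
    (fun a i => by fin_cases a <;> fin_cases i <;> simp +decide [σ]) i j c)
  have k5 : ∀ i j i' j' : Fin 7, i ≠ j → i' ≠ j' → ∃ a : Fin 3, ∃ b : Fin 7, ∃ c : Fin 2,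
      (· + 1)^[b] ((2 * ·)^[a] ((6 * ·)^[c] i)) = i' ∧
        (· + 1)^[b] ((2 * ·)^[a] ((6 * ·)^[c] j)) = j' := by decide +kernel
  refine slin_of_elem fun i' j' hij' => ?_
  obtain ⟨a, b, c, rfl, rfl⟩ := k5 i j i' j' hij hij'
  exact k1 b _ _ (k2 a _ _ (k3 c _ _ hX))

end Hy

/-- the stabiliser of the splitting `W₀ ⊕ W₁ ⊕ W₂ ⊕ W₃` -/
def HH (M : Subgroup (GL (Fin 7) F)) : Subgroup (GL (Fin 7) F) :=
  M ⊓ (Cm (A0 F * B0 F) ⊓ (Cm (A1 F * B1 F) ⊓ (Cm (A2 F * B2 F) ⊓ Cm (A3 F * B3 F))))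

variable {M : Subgroup (GL (Fin 7) F)}

theorem HH0 : HH M ≤ Cm (A0 F * B0 F) := fun _ h => h.2.1
theorem HH1 : HH M ≤ Cm (A1 F * B1 F) := fun _ h => h.2.2.1
theorem HH2 : HH M ≤ Cm (A2 F * B2 F) := fun _ h => h.2.2.2.1
theorem HH3 : HH M ≤ Cm (A3 F * B3 F) := fun _ h => h.2.2.2.2

def r0 (M : Subgroup (GL (Fin 7) F)) := rs' BA0 (HH0 (M := M))
def r1 (M : Subgroup (GL (Fin 7) F)) := rs' BA1 (HH1 (M := M))
def r2 (M : Subgroup (GL (Fin 7) F)) := rs' BA2 (HH2 (M := M))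
def r3 (M : Subgroup (GL (Fin 7) F)) := rs' BA3 (HH3 (M := M))

theorem HH_dec (g : HH M) : g.1.1 = A0 F * (r0 M g).1 * B0 F + A1 F * (r1 M g).1 * B1 F +
    A2 F * (r2 M g).1 * B2 F + A3 F * (r3 M g).1 * B3 F := by
  rw [r0, r1, r2, r3, rs'_val, rs'_val, rs'_val, rs'_val, sandwich BA0 (HH0 g.2),
    sandwich BA1 (HH1 g.2), sandwich BA2 (HH2 g.2), sandwich BA3 (HH3 g.2), ← mul_add, ← mul_add,
    ← mul_add, sum4, Matrix.mul_one]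

theorem mem_HH {X : M7 F} (hX : InM M X) (h0 : X * (A0 F * B0 F) = A0 F * B0 F * X)
    (h1 : X * (A1 F * B1 F) = A1 F * B1 F * X) (h2 : X * (A2 F * B2 F) = A2 F * B2 F * X)
    (h3 : X * (A3 F * B3 F) = A3 F * B3 F * X) : ∃ g : HH M, g.1.1 = X := by
  obtain ⟨g, hg, rfl⟩ := hX
  exact ⟨⟨g, hg, h0, h1, h2, h3⟩, rfl⟩

theorem HH_bk (g : HH M) : g.1.1 = bk ((r0 M g).1 0 0) (r1 M g).1 (r2 M g).1 (r3 M g).1 := by
  rw [HH_dec]; m7x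

/-- block matrices lie in the stabiliser -/
theorem ex_HH {a : F} {X Y Z : M2 F} (hX : InM M (bk a X Y Z)) : ∃ g : HH M, (r0 M g).1 = !![a] ∧
    (r1 M g).1 = X ∧ (r2 M g).1 = Y ∧ (r3 M g).1 = Z := by
  obtain ⟨g, hg⟩ := mem_HH hX (by m7) (by m7) (by m7) (by m7)
  refine ⟨g, ?_, ?_, ?_, ?_⟩ <;> simp only [r0, r1, r2, r3, rs'_val, hg] <;> m7

/-- `δ` permutes the three planes cyclically -/
theorem Hy.cyc {p : ℕ} {ω : F} (h : Hy p ω M) (g : HH M) : ∃ g' : HH M, r0 M g' = r0 M g ∧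
    r2 M g' = r1 M g ∧ r3 M g' = r2 M g ∧ r1 M g' = r3 M g := by
  obtain ⟨g', a, b, c, d⟩ := ex_HH (a := (r0 M g).1 0 0) (X := (r3 M g).1) (Y := (r1 M g).1)
    (Z := (r2 M g).1) ((h.cδ (InM.of g.2.1)).congr (by rw [HH_bk]; m7))
  exact ⟨g', Units.ext (by rw [a]; m7), Units.ext c, Units.ext d, Units.ext b⟩

end Cfsg.Agent.H2.S7
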