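import Cfsg.Agent.H8.C7.Set

/-! The stabiliser of the splitting `W₀ ⊕ W₁ ⊕ W₂ ⊕ W₃`. -/

set_option autoImplicit false
set_option linter.unusedSimpArgs false
set_option linter.unusedSectionVars false
set_option linter.unusedVariables false

namespace Cfsg.Agent.H2.S7

open Matrix OnePoint Cfsg.Agent.H5.T3 Cfsg.Agent.H5.C5 Cfsg.Agent.H8 Cfsg.Agent.H7

local notation "pk" => Matrix.ProjGenLinGroup.mk

variable {F : Type*} [Field F] {M : Subgroup (GL (Fin 7) F)}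

theorem scal_of_tw {X : GL (Fin 2) F} (h : ∀ Y : M2 F, Y.det = 1 → ∃ c : F, X.1 * Y = c • (Y * X.1)) :
    IsScal X.1 := by
  obtain ⟨e, he⟩ := h !![1, 1; 0, 1] (by simp [det_fin_two])
  obtain ⟨f, hf⟩ := h !![1, 0; 1, 1] (by simp [det_fin_two])
  have d := X.det_ne_zero
  rw [det_fin_two] at d
  simp [← Matrix.ext_iff, Fin.forall_fin_succ, mul_apply, vecMul, dotProduct] at he hf
  refine ⟨X.1 0 0, ?_⟩
  ext i j; fin_cases i <;> fin_cases j <;> simp <;> grind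

namespace Hy

variable {p : ℕ} {ω : F} (h : Hy p ω M)
include h

theorem inM_of_mk {X : Subgroup (GL (Fin 2) F)} {t : GL (Fin 2) F} (ht : t.1 ^ p = 1)
    (hm : pk t ∈ X.map pk) : InM X t.1 := by
  haveI := h.finF
  haveI := h.char
  haveI := Fact.mk h.prime
  letI := Fintype.ofFinite F
  obtain ⟨n, -, hn⟩ := FiniteField.card F p
  obtain ⟨x, hx, e⟩ := hm
  obtain ⟨c, hc, e⟩ := exists_smul_of_mk_eq e.symm
  have e1 : x.1 = c • t.1 := by ext i j; simp [e]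
  have h1 := (InM.of hx).pow (Fintype.card F)
  rw [e1, _root_.smul_pow, FiniteField.pow_card, hn, ← Nat.succ_pred_eq_of_pos n.pos, pow_succ',
    pow_mul, ht, one_pow] at h1
  have h2 := h1.inv (Y := c⁻¹ • 1) (by simp [smul_smul, hc])
  exact (h2.mul (InM.of hx)).congr (by rw [e1]; simp [smul_smul, hc])

theorem dick7 {X : Subgroup (GL (Fin 2) F)} (ha : InM X !![ω, 0; 0, ω ^ 6])
    (hs : ∃ s ∈ X, s 0 0 = 0 ∧ s 1 1 = 0)
    (hf : ∃ f ∈ X, (f 0 0 ≠ 0 ∨ f 1 1 ≠ 0) ∧ (f 0 1 ≠ 0 ∨ f 1 0 ≠ 0)) : SLin X := by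
  haveI := h.char
  haveI := h.finF
  haveI : Fact p.Prime := ⟨h.prime⟩
  obtain ⟨a, haX, ha⟩ := ha
  obtain ⟨s, hsX, s0, s1⟩ := hs
  obtain ⟨f, hfX, f0, f1⟩ := hf
  have w := h.one7
  have an : ∀ n, (a ^ n).1 = !![ω ^ n, 0; 0, ω ^ (6 * n)] := fun n => by
    induction n with
    | zero => ext i j; fin_cases i <;> fin_cases j <;> simp
    | succ n ih => rw [pow_succ, Units.val_mul, ih, ha]; simp [pow_succ, mul_add, pow_add, mul_assoc]
  have hne : ω ≠ ω ^ 6 := by simpa using om_ne h.om h.seven (k := 1) (l := 6) (by norm_num)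
  have hsd := s.det_ne_zero
  rw [det_fin_two, s0] at hsd
  have s01 : s 0 1 ≠ 0 := fun e => hsd (by rw [e]; ring)
  have s10 : s 1 0 ≠ 0 := fun e => hsd (by rw [e]; ring)
  have pair : ∀ {K : Type _} [Field K] [Algebra F K] (x y : OnePoint K),
      X.map pk ≤ pairStab F x y → (x = ∞ ∨ x = ((0 : K) : OnePoint K)) ∧
        (y = ∞ ∨ y = ((0 : K) : OnePoint K)) := by
    intro K _ _ x y hH
    have h1 : pk (a ^ 2) • x = x ∧ pk (a ^ 2) • y = y := by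
      rw [sq, map_mul, mul_smul, mul_smul]
      rcases hH ⟨a, haX, rfl⟩ with ⟨e1, e2⟩ | ⟨e1, e2⟩
      · rw [e1, e1, e2, e2]; exact ⟨rfl, rfl⟩
      · rw [e1, e2, e1]; exact ⟨rfl, rfl⟩
    have := om_ne h.om h.seven (k := 2) (l := 6 * 2) (by norm_num)
    exact ⟨fix_diag (an 2) this h1.1, fix_diag (an 2) this h1.2⟩
  rcases H3.dickson2 p (X.map pk) with ⟨x, hx⟩ | ⟨x, y, hxy, hx⟩ | ⟨t, a', b', ht, hx⟩ | hx | ⟨k, g, -, hx⟩
  · exfalso
    have h1 : pk s • x = x := hx ⟨s, hsX, rfl⟩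
    rcases fix_diag ha hne (hx ⟨a, haX, rfl⟩ : pk a • x = x) with rfl | rfl
    · exact s10 (smul_infty_eq_infty.1 h1)
    · rw [smul_coe_eq_coe] at h1
      exact s01 (by simpa using h1)
  · exfalso
    have hp := pair x y hx
    have h1 := hx ⟨f, hfX, rfl⟩
    have key : (pk f • (∞ : OnePoint F) = ∞ ∧ pk f • ((0 : F) : OnePoint F) = ((0 : F) : OnePoint F)) ∨
        (pk f • (∞ : OnePoint F) = ((0 : F) : OnePoint F) ∧ pk f • ((0 : F) : OnePoint F) = ∞) := by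
      obtain ⟨rfl | rfl, rfl | rfl⟩ := hp
      · exact absurd rfl hxy
      · exact h1
      · exact h1.imp And.symm And.symm
      · exact absurd rfl hxy
    rcases key with ⟨e1, e2⟩ | ⟨e1, e2⟩
    · rw [smul_infty_eq_infty] at e1
      rw [smul_coe_eq_coe] at e2
      exact f1.elim (fun e => e (by simpa using e2)) (fun e => e e1)
    · rw [smul_infty_eq_coe] at e1
      rw [smul_coe_eq_infty] at e2
      exact f0.elim (fun e => e (by simpa using e1)) (fun e => e (by simpa using e2))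
  · exfalso
    rcases (pair _ _ hx).1 with e | e
    · exact coe_ne_infty _ e
    · exact ht.not_mem 0 (by rw [map_zero]; exact (coe_eq_coe.1 e).symm)
  · exfalso
    have k1 := hx.1 _ ⟨a, haX, rfl⟩
    have k2 := orderOf_pos (pk a)
    have k3 := pow_orderOf_eq_one (pk a)
    rw [← map_pow, mk_eq_one_iff] at k3
    generalize orderOf (pk a) = n at k1 k2 k3
    exact om_ne h.om h.seven (k := n) (l := 6 * n) (by omega) (by simpa [an] using k3.2.2)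
  · have k1 : g⁻¹ * pk a * g ∈ PG k := by
      have : pk a ∈ X.map pk := ⟨a, haX, rfl⟩
      rcases hx with hx | hx <;> rw [hx, mem_cj] at this
      exacts [PS_le_PG _ this, this]
    obtain ⟨G, rfl⟩ := ProjGenLinGroup.mk_surjective g
    obtain ⟨b, e, hb⟩ := mem_PG.1 k1
    rw [← map_inv, ← map_mul, ← map_mul] at e
    obtain ⟨c, hc, e⟩ := exists_smul_of_mk_eq e.symm
    have e1 : b.1 = c • (G⁻¹ * a * G).1 := by ext i j; simp [e]
    have e2 : b.1.trace = c * (ω + ω ^ 6) := by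
      rw [e1, trace_smul, Units.val_mul, Units.val_mul, trace_units_conj', ha]; simp
    have e3 : b.1.det = c ^ 2 := by
      rw [e1, det_smul, Units.val_mul, Units.val_mul, det_units_conj', ha, det_fin_two_of, ← pow_succ', w]
      simp
    have e4 : (ω + ω ^ 6) ^ 2 ∈ k := by
      have : b.1.trace ^ 2 / b.1.det ∈ k := by
        rw [trace_fin_two, det_fin_two]
        exact div_mem (pow_mem (add_mem (hb _ _) (hb _ _)) 2)
          (sub_mem (mul_mem (hb _ _) (hb _ _)) (mul_mem (hb _ _) (hb _ _)))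
      rwa [e2, e3, mul_pow, mul_div_cancel_left₀ _ (pow_ne_zero 2 hc)] at this
    have t : (2 : F) ∈ k := by exact_mod_cast natCast_mem k 2
    obtain rfl := h.gen k (by
      have := sub_mem (pow_mem (sub_mem (pow_mem (sub_mem e4 t) 2) t) 2) t
      rwa [show (ω + ω ^ 6) ^ 2 - 2 = ω ^ 2 + ω ^ 5 by linear_combination (2 + ω ^ 5) * w,
        show (ω ^ 2 + ω ^ 5) ^ 2 - 2 = ω ^ 4 + ω ^ 3 by linear_combination (2 + ω ^ 3) * w,
        show (ω ^ 4 + ω ^ 3) ^ 2 - 2 = ω + ω ^ 6 by linear_combination (2 + ω) * w] at this)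
    have hL : Lsub F ≤ X.map pk := by
      intro y hy
      have hy' : (pk G)⁻¹ * y * pk G ∈ PS (⊤ : Subfield F) := by
        rw [PS_top]; exact (Lsub_normal).conj_mem' y hy _
      rcases hx with hx | hx <;> rw [hx, mem_cj]
      · exact hy'
      · exact PS_le_PG _ hy'
    have hp0 : (p : F) = 0 := CharP.cast_eq_zero F p
    apply slin_of
    · intro c
      refine h.inM_of_mk (t := mat 1 c 0 1 (by simp)) ?_ (hL (mk_mem_Lsub.2 ⟨1, by simp⟩))
      show (!![1, c; 0, 1] : Matrix (Fin 2) (Fin 2) F) ^ p = 1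
      rw [up_pow, hp0]; ext i j; fin_cases i <;> fin_cases j <;> simp
    · intro c
      refine h.inM_of_mk (t := mat 1 0 c 1 (by simp)) ?_ (hL (mk_mem_Lsub.2 ⟨1, by simp⟩))
      show (!![1, 0; c, 1] : Matrix (Fin 2) (Fin 2) F) ^ p = 1
      rw [lo_pow, hp0]; ext i j; fin_cases i <;> fin_cases j <;> simp

theorem exρ : ∃ g : HH M, (r0 M g).1 = !![1] ∧ (r1 M g).1 = !![ω, 0; 0, ω ^ 6] ∧
    (r2 M g).1 = !![ω ^ 2, 0; 0, ω ^ 5] ∧ (r3 M g).1 = !![ω ^ 4, 0; 0, ω ^ 3] :=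
  ex_HH (h.hρ.congr (by m7))

/-- a non-monomial element on `W₁` gives `SL₂` there -/
theorem slin_r1 (g : HH M) (h1 : r1 M g 0 0 ≠ 0 ∨ r1 M g 1 1 ≠ 0)
    (h2 : r1 M g 0 1 ≠ 0 ∨ r1 M g 1 0 ≠ 0) : SLin (r1 M).range := by
  obtain ⟨r, -, q1, -⟩ := h.exρ
  obtain ⟨s, -, s1, -⟩ := ex_HH (a := -1) (X := !![0, -1; -1, 0]) (Y := !![0, -1; -1, 0])
    (Z := !![0, -1; -1, 0]) (h.hσ.congr (by m7))
  exact h.dick7 ⟨_, ⟨r, rfl⟩, q1⟩ ⟨_, ⟨s, rfl⟩, by simp [s1]⟩ ⟨_, ⟨g, rfl⟩, h1, h2⟩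

variable (h1 : SLin (r1 M).range)
include h1

theorem slin_map (S : Subgroup (HH M)) [hS : S.Normal] {y : HH M} (hy : y ∈ S)
    (hn : ¬ IsScal (r1 M y).1) : SLin (S.map (r1 M)) :=
  slin_of_normal (om0 h.om) (om_pow h.om h.seven (by norm_num)) (by
    rintro G G' _ hG hG' ⟨_, ⟨z, z0, rfl⟩, rfl⟩
    obtain ⟨_, ⟨w, rfl⟩, e⟩ := h1 G hG
    exact ⟨_, ⟨w * z * w⁻¹, hS.conj_mem z z0 w, rfl⟩, by
      rw [map_mul, map_mul, map_inv, Units.val_mul, Units.val_mul, e,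
        Units.inv_eq_of_mul_eq_one_right (e ▸ hG')]⟩) (InM.of ⟨y, hy, rfl⟩) hn

omit h h1 in
theorem scal_of_comm {S : Subgroup (HH M)} (hS : SLin (S.map (r1 M))) {g : HH M}
    (hc : ∀ k ∈ S, IsScal (r1 M (g * k * g⁻¹ * k⁻¹)).1) : IsScal (r1 M g).1 :=
  scal_of_tw fun Y hY => by
    obtain ⟨_, ⟨k, hk, rfl⟩, rfl⟩ := hS Y hY
    obtain ⟨c, e⟩ := hc k hk
    refine ⟨c, ?_⟩
    rw [← smul_one_mul, ← e, ← Units.val_mul, ← Units.val_mul, ← Units.val_mul, ← map_mul, ← map_mul,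
      ← map_mul]
    congr 2; group

omit h h1 in
theorem comm_one {G : Type*} [Group G] {r : G →* GL (Fin 2) F} {g k : G}
    (hc : IsScal (r g).1 ∨ IsScal (r k).1) : r (g * k * g⁻¹ * k⁻¹) = 1 := by
  rw [map_mul, map_mul, map_mul, map_inv, map_inv, mul_inv_eq_one, mul_inv_eq_iff_eq_mul]
  apply Units.ext
  rcases hc with ⟨c, e⟩ | ⟨c, e⟩ <;> simp [e]

omit h h1 in
theorem comm_r0 (g k : HH M) : r0 M (g * k * g⁻¹ * k⁻¹) = 1 := by
  rw [map_mul, map_mul, map_mul, map_inv, map_inv, mul_inv_eq_one, mul_inv_eq_iff_eq_mul]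
  apply Units.ext
  ext i j; simp [-rs'_val, mul_apply, mul_comm, Subsingleton.elim i 0, Subsingleton.elim j 0]

variable (hn : ¬ SLin M)
include hn

/-- scalar on two planes implies scalar on the third -/
theorem TA (g : HH M) (h2 : IsScal (r2 M g).1) (h3 : IsScal (r3 M g).1) : IsScal (r1 M g).1 := by
  refine scal_of_comm (S := ⊤) (by rwa [← MonoidHom.range_eq_map]) fun k _ => by_contra fun e => hn ?_
  refine h.big (i := 1) (j := 6) (by decide) fun c => ?_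
  obtain ⟨_, ⟨z, ⟨z0, z2, z3⟩, rfl⟩, e⟩ := h.slin_map h1 ((r0 M).ker ⊓ ((r2 M).ker ⊓ (r3 M).ker))
    ⟨comm_r0 g k, comm_one (Or.inl h2), comm_one (Or.inl h3)⟩ e !![1, c; 0, 1] (by simp [det_fin_two])
  refine (InM.of z.2.1).congr ?_
  rw [HH_bk, show r0 M z = 1 from z0, show r2 M z = 1 from z2, show r3 M z = 1 from z3, e]; m7

/-- scalar on one plane implies scalar on all -/
theorem TB (g : HH M) (h3 : IsScal (r3 M g).1) : IsScal (r1 M g).1 ∧ IsScal (r2 M g).1 := by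
  obtain ⟨g', -, a1, a2, a3⟩ := h.cyc g
  obtain ⟨g'', -, b1, b2, b3⟩ := h.cyc g'
  have k : IsScal (r1 M g).1 := by
    by_contra e
    refine e (scal_of_comm (h.slin_map h1 ((Geo.scalars (Fin 2) F).comap (r2 M)) (y := g'')
      ((mem_scalars_iff_isScal _).2 (by rwa [b1, a3])) fun e' => e (h.TA h1 hn g (by
        rwa [← a2, ← b3]) h3)) fun k hk => h.TA h1 hn _ ?_ ?_)
    · rw [comm_one (Or.inr ((mem_scalars_iff_isScal _).1 hk))]; exact ⟨1, by simp⟩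
    · rw [comm_one (Or.inl h3)]; exact ⟨1, by simp⟩
  exact ⟨k, by rw [← a2, ← b3]; exact h.TA h1 hn _ (by rwa [b1, a3]) (by rwa [b2, a1])⟩

theorem TB1 (g : HH M) (h3 : IsScal (r1 M g).1) : IsScal (r2 M g).1 ∧ IsScal (r3 M g).1 := by
  obtain ⟨g', -, a1, a2, a3⟩ := h.cyc g
  obtain ⟨g'', -, b1, b2, b3⟩ := h.cyc g'
  rw [← a2, ← b3, ← a3, ← b1]
  exact h.TB h1 hn _ (by rwa [b2, a1])

theorem TB2 (g : HH M) (h3 : IsScal (r2 M g).1) : IsScal (r1 M g).1 ∧ IsScal (r3 M g).1 := by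
  obtain ⟨g', -, a1, a2, a3⟩ := h.cyc g
  rw [← a1, ← a3]
  exact (h.TB h1 hn _ (by rwa [a2])).symm

theorem T_odd (hp : p ≠ 2) : False := by
  have h2 := h.two hp
  obtain ⟨r, -, q1, -⟩ := h.exρ
  have d : ∀ {a b : F}, IsScal !![a, 0; 0, b] ↔ a = b := fun {a b} => ⟨fun ⟨c, e⟩ => by
    simp [← Matrix.ext_iff, Fin.forall_fin_succ] at e; rw [e.1, e.2], fun e => ⟨a, by subst e; m7⟩⟩
  obtain ⟨k, -, hk⟩ : ∃ k ∈ (⊤ : Subgroup (HH M)), ¬ IsScal (r1 M (r * k * r⁻¹ * k⁻¹)).1 := by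
    by_contra! e
    have := scal_of_comm (by rwa [← MonoidHom.range_eq_map]) e
    rw [q1, d] at this
    exact om_ne h.om h.seven (k := 1) (l := 6) (by norm_num) (by rwa [pow_one])
  obtain ⟨_, ⟨z, ⟨z0, z2⟩, rfl⟩, e⟩ := h.slin_map h1 ((r0 M).ker ⊓
    (GeneralLinearGroup.det.comp (r2 M)).ker) ⟨comm_r0 r k, MonoidHom.mem_ker.2 (by
      simp only [map_mul, map_inv, mul_inv_cancel_comm, mul_inv_cancel])⟩ hk
    (-1) (by simp [det_neg])
  obtain ⟨⟨b, hb⟩, c, hc⟩ := h.TB1 h1 hn z ⟨-1, by simp [e]⟩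
  have b2 : (r2 M z).1.det = 1 := congrArg Units.val z2
  have hz := InM.of z.2.1
  rw [HH_bk, show r0 M z = 1 from z0, e, hb, hc] at hz
  rw [hb, det_smul, det_one, mul_one, Fintype.card_fin, sq_eq_one_iff] at b2
  rcases b2 with rfl | rfl
  · obtain ⟨g, -, g1, g2, g3⟩ := ex_HH (a := -1) (X := !![1, 0; 0, 1]) (Y := !![-1, 0; 0, c])
      (Z := !![c, 0; 0, 1]) ((h.cτ hz).congr (by m7))
    have := h.TB1 h1 hn g (by rw [g1, d])
    rw [g2, g3, d, d] at this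
    exact h2 (by linear_combination -this.1 - this.2)
  · obtain ⟨g, -, g1, g2, g3⟩ := ex_HH (a := -1) (X := !![-1, 0; 0, c]) (Y := !![1, 0; 0, c])
      (Z := !![-1, 0; 0, -1]) ((h.cτ (h.cτ hz)).congr (by m7))
    have := h.TB h1 hn g (by rw [g3, d])
    rw [g1, g2, d, d] at this
    exact h2 (by linear_combination this.2 - this.1)

omit h1 in
/-- in odd characteristic the stabiliser is monomial -/
theorem mono1 (hp : p ≠ 2) (g : HH M) {a b : F} (hg : (r1 M g).1 = !![a, b; b, a]) : a = 0 ∨ b = 0 := by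
  by_contra! e
  exact h.T_odd (h.slin_r1 g (by simp [hg, e.1]) (by simp [hg, e.2])) hn hp

omit h1 in
theorem mono3 (hp : p ≠ 2) {x a b c d e f : F}
    (hX : InM M (bk x !![a, b; b, a] !![c, d; d, c] !![e, f; f, e])) :
    (a = 0 ∨ b = 0) ∧ (c = 0 ∨ d = 0) ∧ (e = 0 ∨ f = 0) := by
  obtain ⟨g, -, g1, g2, g3⟩ := ex_HH hX
  obtain ⟨g', -, a1, a2, a3⟩ := h.cyc g
  obtain ⟨g'', -, b1, b2, b3⟩ := h.cyc g'
  exact ⟨h.mono1 hn hp g g1, h.mono1 hn hp g'' (by rw [b3, a2, g2]), h.mono1 hn hp g' (by rw [a3, g3])⟩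

end Hy

end Cfsg.Agent.H2.S7
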