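import Cfsg.Agent.H8.C7.Lin

/-! Subgroups of `GL₄` normalised by `SL₂(7)` in which `u` centralises only involutions. -/

set_option autoImplicit false
set_option linter.unusedSimpArgs false
set_option linter.unusedSectionVars false
set_option linter.unusedVariables false

namespace Cfsg.Agent.H2.S7

open Matrix Subgroup
open scoped commutatorElement Pointwise

theorem fix_two {G : Type*} [Group G] [Finite G] (φ : G →* G) (h7 : ∀ x, φ^[7] x = x) {Λ : Subgroup G}
    (E : ∀ x ∈ Λ, φ x = x → x * x = 1)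
    (Ab : ∀ y ∈ Λ, (∃ k, y ^ 2 ^ k = 1) → (∀ j, Commute y (φ^[j] y)) → φ y = y) (Q : Subgroup G) :
    Q ≤ Λ → IsPGroup 2 Q → (∀ x ∈ Q, φ x ∈ Q) → ∀ x ∈ Q, φ x = x := by
  induction Q using WellFoundedLT.induction with | ind Q ih => ?_
  intro hΛ hQ inv
  have ih' : ∀ R ≤ Q, R ≠ Q → (∀ x ∈ R, φ x ∈ R) → ∀ x ∈ R, φ x = x := fun R a b =>
    ih R (lt_of_le_of_ne a b) (a.trans hΛ) (hQ.to_le a)
  have key : ∀ g ∈ Q, φ (g⁻¹ * φ g) = g⁻¹ * φ g → φ g = g := fun g hg e => by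
    have e2 := E _ (hΛ (mul_mem (inv_mem hg) (inv g hg))) e
    obtain ⟨d, hd⟩ : ∃ d, φ g = g * d := ⟨g⁻¹ * φ g, by group⟩
    rw [hd, inv_mul_cancel_left] at e e2
    have := h7 g
    simp only [Function.iterate_succ_apply', Function.iterate_zero_apply, hd, map_mul, e, mul_assoc,
      e2, mul_one, ← mul_assoc d d, one_mul] at this
    exact hd.trans this
  have sq : ∀ x ∈ Q, φ (x * x) = x * x := fun x hx => by
    obtain ⟨n, hn⟩ := IsPGroup.iff_card.1 hQ
    rcases n with _ | n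
    · rw [(mem_bot.1 (eq_bot_of_card_eq Q hn ▸ hx) : x = 1)]; simp
    obtain ⟨K, hK⟩ := Sylow.exists_subgroup_card_pow_prime 2 (G := Q) (n := n) (hn ▸ pow_dvd_pow 2 (by omega))
    have i2 : K.index = 2 := by
      have := K.card_mul_index
      rw [hK, hn, pow_succ] at this
      exact Nat.eq_of_mul_eq_mul_left (by positivity) this
    have le : closure {y | ∃ x ∈ Q, x * x = y} ≤ K.map Q.subtype := (closure_le _).2 (by
      rintro _ ⟨x, hx, rfl⟩; exact ⟨_, mul_self_mem_of_index_two i2 ⟨x, hx⟩, rfl⟩)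
    refine ih' _ (le.trans (map_subtype_le _)) (fun e => ?_) (fun y hy => ?_) _
      (subset_closure ⟨x, hx, rfl⟩)
    · have := card_le_of_le (e.ge.trans le)
      rw [card_map_of_injective Q.subtype_injective, hK, hn, pow_succ] at this
      have := Nat.two_pow_pos n
      omega
    · exact (closure_le (K := comap φ (closure _))).2 (by
        rintro _ ⟨x, hx, rfl⟩; exact subset_closure ⟨_, inv x hx, (map_mul φ x x).symm⟩) hy
  have cm : ∀ x ∈ Q, ∀ y ∈ Q, φ ⁅x, y⁆ = ⁅x, y⁆ := fun x hx y hy => by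
    rw [show ⁅x, y⁆ = x * x * (x⁻¹ * y * (x⁻¹ * y)) * (y⁻¹ * y⁻¹) by
      rw [commutatorElement_def]; group, map_mul, map_mul, sq x hx, sq _ (inv_mem hy),
      sq _ (mul_mem (inv_mem hx) hy)]
  by_cases hC : Q ⊓ centralizer {d | d ∈ Q ∧ φ d = d} = Q
  swap
  · refine fun g hg => key g hg (ih' _ inf_le_left hC (fun x hx => ⟨inv x hx.1, fun d hd => ?_⟩) _
      ⟨Q.mul_mem (Q.inv_mem hg) (inv g hg), fun d hd => ?_⟩)
    · rw [← hd.2, ← map_mul, hx.2 d hd, map_mul]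
    · have := cm g hg d hd.1
      rw [commutatorElement_def, map_mul, map_mul, map_mul, map_inv, map_inv, hd.2,
        mul_left_inj] at this
      calc d * (g⁻¹ * φ g) = g⁻¹ * (g * d * g⁻¹) * φ g := by group
        _ = _ := by rw [← this]; group
  have cen : ∀ d ∈ Q, φ d = d → ∀ x ∈ Q, d * x = x * d := fun d a b x hx => (hC.ge hx).2 d ⟨a, b⟩
  let ψ : Q →* Q := (φ.comp Q.subtype).codRestrict Q fun x => inv x x.2
  have hψ : ∀ j (x : Q), (ψ^[j] x : Q) = φ^[j] x := fun j => by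
    induction j with
    | zero => exact fun _ => rfl
    | succ j ih => exact fun x => ih (ψ x)
  intro g hg
  have k : ∀ i, i = 1 ∨ i = 2 → φ (g * φ^[i] g * φ^[3] g) = g * φ^[i] g * φ^[3] g := fun i hi => by
    have := fun j => (comm_ds ψ (fun x => Subtype.ext ((hψ 7 x).trans (h7 x)))
      (fun a b => mem_center_iff.2 fun x => Subtype.ext (cen _ ⁅a, b⁆.2 (cm _ a.2 _ b.2) _ x.2).symm)
      (fun a b => Subtype.ext (cm _ a.2 _ b.2))
      (fun a b => Subtype.ext (E _ (hΛ ⁅a, b⁆.2) (cm _ a.2 _ b.2))) ⟨g, hg⟩ i hi j).map Q.subtype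
    simp only [coe_subtype, hψ, coe_mul] at this
    obtain ⟨y, hy⟩ : ∃ y : Q, y.1 = g * φ^[i] g * φ^[3] g :=
      ⟨⟨g, hg⟩ * ψ^[i] ⟨g, hg⟩ * ψ^[3] ⟨g, hg⟩, by simp only [coe_mul, hψ]⟩
    rw [← hy] at this ⊢
    exact Ab _ (hΛ y.2) ((hQ y).imp fun k e => congrArg Subtype.val e) this
  have m : ∀ j, φ^[j] g ∈ Q := fun j => hψ j ⟨g, hg⟩ ▸ (ψ^[j] ⟨g, hg⟩).2
  have e : φ ((g * φ^[1] g * φ^[3] g)⁻¹ * (g * φ^[2] g * φ^[3] g)) =
      (g * φ^[1] g * φ^[3] g)⁻¹ * (g * φ^[2] g * φ^[3] g) := by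
    rw [map_mul, map_inv, k 1 (by simp), k 2 (by simp)]
  have e2 := cen _ (mul_mem (inv_mem (mul_mem (mul_mem hg (m 1)) (m 3)))
    (mul_mem (mul_mem hg (m 2)) (m 3))) e _ (inv_mem (m 3))
  have e3 : (g * φ^[1] g * φ^[3] g)⁻¹ * (g * φ^[2] g * φ^[3] g) = (φ g)⁻¹ * φ (φ g) := by
    apply mul_left_cancel (a := (φ^[3] g)⁻¹)
    rw [← e2, show φ (φ g) = φ^[2] g from rfl, show φ g = φ^[1] g from rfl]; group
  exact (h7 (φ g)).symm.trans ((congrArg (φ^[6]) (key _ (inv g hg) (e3 ▸ e))).trans (h7 g))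

theorem inv_sylow {G : Type*} [Group G] [Finite G] (φ : MulAut G) (h7 : φ ^ 7 = 1) (r : ℕ)
    [Fact r.Prime] (h : ¬ 7 ∣ Nat.card (Sylow r G)) : ∃ P : Sylow r G, ∀ x ∈ P, φ x ∈ P := by
  haveI := Fact.mk (by norm_num : Nat.Prime 7)
  obtain ⟨P, hP⟩ := (IsPGroup.of_card_dvd_pow (p := 7) (n := 1) (G := zpowers φ) (by
    rw [Nat.card_zpowers]; exact orderOf_dvd_of_pow_eq_one h7)).nonempty_fixed_point_of_prime_not_dvd_card (Sylow r G) h
  refine ⟨P, fun x hx => ?_⟩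
  rw [← show φ • P = P from hP ⟨φ, mem_zpowers φ⟩]
  exact smul_mem_pointwise_smul x φ P.1 hx

variable {F : Type*} [Field F] {ω : F} {M : Subgroup (GL (Fin 7) F)} {p : ℕ}

theorem conj_iter {G : Type*} [Group G] (U x : G) (j : ℕ) :
    (MulAut.conj U)^[j] x = MulAut.conj (U ^ j) x := by
  induction j with
  | zero => simp
  | succ j ih => rw [Function.iterate_succ_apply', ih, pow_succ', map_mul, MulAut.mul_apply]

theorem Hy.ab4 (h : Hy p ω M) {U : GL (Fin 4) F} (hU : U.1 = diagonal fun i => ω ^ ![0, 1, 4, 2] i)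
    {x : GL (Fin 4) F} (h2 : ∀ j, Commute x ((MulAut.conj U)^[j] x)) {m : ℕ} (hm : ¬ p ∣ m)
    (hS : x ^ m = 1) : U * x * U⁻¹ = x := by
  haveI := h.finF
  haveI := h.char
  have k1 : ∀ (d : Fin 6) (i j k l : Fin 4), ¬ ((![0, 1, 4, 2] i + 6 * ![0, 1, 4, 2] k + (d.1 + 1)) % 7 = 0 ∧
    (![0, 1, 4, 2] k + 6 * ![0, 1, 4, 2] l + (d.1 + 1)) % 7 = 0 ∧
    (![0, 1, 4, 2] l + 6 * ![0, 1, 4, 2] j + (d.1 + 1)) % 7 = 0) := by decide +kernel
  have c : ∀ i k, Commute ((MulAut.conj U)^[i] x) ((MulAut.conj U)^[i + k] x) := fun i k => by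
    rw [Function.iterate_add_apply, conj_iter, conj_iter _ _ i]; exact (h2 k).map _
  have k : ∀ d : Fin 6, (of fun i j => if (![0, 1, 4, 2] i + 6 * ![0, 1, 4, 2] j + (d.1 + 1)) % 7 = 0
      then x.1 i j else 0) = 0 := fun d => sp_red h.prime (S := Set.range fun j => (MulAut.conj U)^[j] x)
    (by
      rintro _ ⟨i, rfl⟩ _ ⟨j, rfl⟩
      rcases le_total i j with e | e <;> obtain ⟨k, rfl⟩ := Nat.exists_eq_add_of_le e
      exacts [c i k, (c j k).symm]) hm (by rintro _ ⟨i, rfl⟩; simp only [conj_iter, ← map_pow _ x, hS, map_one])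
    (comp_mat h.om h.seven _ hU (sp_conj (S := Set.range _) (by
      rintro _ ⟨i, rfl⟩; exact ⟨i + 1, Function.iterate_succ_apply' _ _ _⟩))
      (Submodule.subset_span ⟨x, ⟨0, rfl⟩, rfl⟩) _) ⟨3, by
      ext i j
      simp only [pow_succ, pow_zero, one_mul, mul_apply, Finset.sum_mul, of_apply]
      refine Finset.sum_eq_zero fun l _ => Finset.sum_eq_zero fun k _ => ?_
      have := k1 d i j k l
      split_ifs <;> simp_all only [and_self, not_true, mul_zero, zero_mul]⟩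
  have k2 : ∀ i j : Fin 4, i ≠ j → ∃ d : Fin 6,
    (![0, 1, 4, 2] i + 6 * ![0, 1, 4, 2] j + (d.1 + 1)) % 7 = 0 := by decide
  have k3 : x.1.IsDiag := fun i j e => by
    obtain ⟨d, hd⟩ := k2 i j e
    simpa [hd] using congrFun (congrFun (k d) i) j
  rw [mul_inv_eq_iff_eq_mul]
  apply Units.ext
  rw [Units.val_mul, Units.val_mul, hU, ← k3.diagonal_diag, diagonal_mul_diagonal', diagonal_mul_diagonal']
  simp only [mul_comm]

theorem Hy.diag4 (h : Hy p ω M) {U : GL (Fin 4) F} (hU : U.1 = diagonal fun i => ω ^ ![0, 1, 4, 2] i)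
    {x : GL (Fin 4) F} (e : U * x * U⁻¹ = x) : x.1.IsDiag := fun i j hij => by
  have : (U.1 * x.1) i j = (x.1 * U.1) i j := by
    rw [← Units.val_mul, mul_inv_eq_iff_eq_mul.1 e, Units.val_mul]
  rw [hU, diagonal_mul, mul_diagonal, mul_comm (x.1 i j)] at this
  exact by_contra fun e => om_ne h.om h.seven (by clear this e; revert i j; decide) (mul_right_cancel₀ e this)

theorem Hy.L4 (h : Hy p ω M) (hp : p ≠ 2) {U f : GL (Fin 4) F}
    (hU : U.1 = diagonal fun i => ω ^ ![0, 1, 4, 2] i) (hf : ∀ i j, f.1 i j ≠ 0)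
    {Λ : Subgroup (GL (Fin 4) F)} (nU : U ∈ normalizer (Λ : Set (GL (Fin 4) F)))
    (nf : f ∈ normalizer (Λ : Set (GL (Fin 4) F))) (E : ∀ x ∈ Λ, U * x * U⁻¹ = x → x * x = 1) :
    ∀ x ∈ Λ, H7.IsScal x.1 := by
  haveI := h.finF
  haveI := h.char
  haveI := Fact.mk h.prime
  have U7 : U ^ 7 = 1 := Units.ext (by
    rw [Units.val_pow_eq_pow_val, hU, diagonal_pow, Units.val_one, ← diagonal_one]
    congr 1; ext i
    simp [← pow_mul, mul_comm _ 7, pow_mul ω 7, h.one7])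
  let φ := Λ.normalizerMonoidHom ⟨U, nU⟩
  have φ7 : φ ^ 7 = 1 := by rw [← map_pow, show (⟨U, nU⟩ : normalizer _) ^ 7 = 1 from Subtype.ext U7, map_one]
  have odd : ∀ r : ℕ, r.Prime → r ≠ 2 → r ≠ p → [Fact r.Prime] → ¬ 7 ∣ Nat.card (Sylow r Λ) →
      ¬ r ∣ Nat.card Λ := fun r hr r2 rp _ h7 d => by
    obtain ⟨P, hP⟩ := inv_sylow φ φ7 r h7
    haveI : Nontrivial P := Finite.one_lt_card_iff_nontrivial.1
      (hr.one_lt.trans_le (Nat.le_of_dvd Nat.card_pos (P.dvd_card_of_dvd_card d)))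
    haveI := P.isPGroup'.center_nontrivial
    obtain ⟨n, n0, hn⟩ := (P.isPGroup'.to_subgroup (center P)).nontrivial_iff_card.1 inferInstance
    obtain ⟨z, hz⟩ := exists_prime_orderOf_dvd_card' (G := center P) r (hn ▸ dvd_pow_self r n0.ne')
    rw [← orderOf_coe, ← orderOf_coe, ← orderOf_coe] at hz
    have m : ∀ j, ∃ y ∈ P, y.1 = (MulAut.conj U)^[j] z.1.1.1 := fun j => by
      induction j with
      | zero => exact ⟨_, z.1.2, rfl⟩
      | succ j ih =>
        obtain ⟨y, a, b⟩ := ih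
        exact ⟨_, hP y a, by rw [Function.iterate_succ_apply', ← b]; rfl⟩
    have := h.ab4 hU (x := z.1.1.1) (m := r) (fun j => by
        obtain ⟨y, a, b⟩ := m j
        exact b ▸ (congrArg (fun x : P => x.1.1) (mem_center_iff.1 z.2 ⟨y, a⟩)).symm)
      (fun e => rp ((Nat.prime_dvd_prime_iff_eq h.prime hr).1 e).symm) (orderOf_dvd_iff_pow_eq_one.1 hz.dvd)
    exact r2 ((Nat.prime_dvd_prime_iff_eq hr Nat.prime_two).1
      (hz ▸ orderOf_dvd_of_pow_eq_one (by rw [sq]; exact E _ z.1.1.2 this)))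
  have p11 := h.eleven hp
  have s7 : ¬ 7 ∣ Nat.card Λ := by
    haveI := Fact.mk (by norm_num : Nat.Prime 7)
    exact odd 7 Fact.out (by norm_num) (by omega) (not_dvd_card_sylow 7 Λ)
  have sy : ∀ (r : ℕ) [Fact r.Prime], ¬ 7 ∣ Nat.card (Sylow r Λ) := fun r _ d =>
    s7 (d.trans ((Sylow.card_dvd_index default).trans (index_dvd_card _)))
  have pr : ∀ r : ℕ, r.Prime → r ∣ Nat.card Λ → r ≠ p → r = 2 := fun r hr d rp =>
    haveI := Fact.mk hr
    by_contra fun r2 => odd r hr r2 rp (sy r) d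
  have two := fix_two (MulAut.conj U).toMonoidHom (fun x => by
      rw [MulEquiv.coe_toMonoidHom, conj_iter, U7, map_one, MulAut.one_apply]) E
    fun y _ ⟨k, hk⟩ c => h.ab4 hU c (fun e => hp ((Nat.prime_dvd_prime_iff_eq h.prime Nat.prime_two).1
      (h.prime.dvd_of_dvd_pow e))) hk
  have np : ¬ p ∣ Nat.card Λ := fun d => by
    obtain ⟨Q, hQ⟩ := inv_sylow φ φ7 2 (sy 2)
    obtain ⟨P⟩ : Nonempty (Sylow p Λ) := inferInstance
    have q1 : ∀ x : Q, U * x.1.1 * U⁻¹ = x.1.1 := fun x => two (Q.1.map Λ.subtype) (map_subtype_le _)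
      (Q.isPGroup'.map _) (by rintro _ ⟨x, hx, rfl⟩; exact ⟨_, hQ x hx, rfl⟩) _ ⟨_, x.2, rfl⟩
    have q2 : Nat.card Q ≤ 16 := by
      classical
      refine (Nat.card_le_card_of_injective (fun x i => decide (x.1.1.1 i i = 1) : Q → Fin 4 → Bool)
        fun x y e => Subtype.ext (Subtype.ext (Units.ext ?_))).trans (by simp)
      have k : ∀ (x : Q) i, x.1.1.1 i i = 1 ∨ x.1.1.1 i i = -1 := fun x i => mul_self_eq_one_iff.1 (by
        have : (x.1.1.1 * x.1.1.1) i i = (1 : M4 F) i i := by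
          rw [← Units.val_mul, E _ x.1.2 (q1 x), Units.val_one]
        rwa [← (h.diag4 hU (q1 x)).diagonal_diag, diagonal_mul_diagonal, diagonal_apply_eq,
          one_apply_eq] at this)
      rw [← (h.diag4 hU (q1 x)).diagonal_diag, ← (h.diag4 hU (q1 y)).diagonal_diag]
      congr 1; ext i
      have := decide_eq_decide.1 (congrFun e i)
      have := k x i
      have := k y i
      simp only [diag_apply]; grind
    have q3 := Nat.eq_prime_pow_of_unique_prime_dvd (p := 2) P.index_ne_zero_of_finite fun {r} hr d =>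
      pr r hr (d.trans (index_dvd_card _)) (by rintro rfl; exact P.not_dvd_index d)
    have q4 := (Nat.le_of_dvd Nat.card_pos (Q.pow_dvd_card_of_pow_dvd_card
      (q3 ▸ index_dvd_card P.1))).trans q2
    obtain ⟨i, i1, i2⟩ := (Nat.dvd_prime_pow Nat.prime_two).1 (q3 ▸ P.card_dvd_index)
    have q5 := (Nat.modEq_iff_dvd' (i2 ▸ Nat.one_le_two_pow)).1 (card_sylow_modEq_one p Λ).symm
    have i4 : i ≤ 4 := (Nat.pow_le_pow_iff_right (by norm_num)).1 ((Nat.pow_le_pow_right (by norm_num) i1).trans q4)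
    haveI : Subsingleton (Sylow p Λ) := Finite.card_le_one_iff_subsingleton.1 (by
      rw [i2] at q5 ⊢
      interval_cases i <;> first | rfl | (have := Nat.le_of_dvd (by norm_num) q5; omega) | skip
      have := Nat.le_of_dvd (by norm_num) q5
      have := h.prime
      interval_cases p <;> first | omega | norm_num at this)
    let W : Submodule F (Fin 4 → F) :=
      { carrier := {v | ∀ x : P, x.1.1.1 *ᵥ v = v}
        add_mem' := fun a b x => by rw [mulVec_add, a x, b x]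
        zero_mem' := fun x => mulVec_zero _
        smul_mem' := fun c v a x => by rw [mulVec_smul, a x] }
    have hW : ∀ g ∈ normalizer (Λ : Set (GL (Fin 4) F)), ∀ v ∈ W, g.1 *ᵥ v ∈ W := fun g hg v hv x => by
      have := hv ⟨Λ.normalizerMonoidHom ⟨g, hg⟩⁻¹ x, (congrArg Sylow.toSubgroup (Subsingleton.elim
        (Λ.normalizerMonoidHom ⟨g, hg⟩⁻¹ • P) P)).le (smul_mem_pointwise_smul x.1 _ P.1 x.2)⟩
      conv_rhs => rw [← this]
      rw [mulVec_mulVec, mulVec_mulVec, ← Units.val_mul, ← Units.val_mul]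
      congr 2
      show _ = g * (g⁻¹ * x.1.1 * g⁻¹⁻¹)
      group
    have sg : ∀ v ∈ W, ∀ i, v i ≠ 0 → Pi.single i 1 ∈ W := fun v hv i e => by
      convert W.smul_mem (v i)⁻¹ (comp_vec h.om h.seven ![0, 1, 4, 2] (fun v hv => by
        convert hW U nU v hv using 1; ext i; rw [hU, mulVec_diagonal]) hv (6 * ![0, 1, 4, 2] i)) using 1
      ext j
      fin_cases i <;> fin_cases j <;> simp at e ⊢ <;> simp [e]
    letI : MulAction P (Fin 4 → F) :=
      { smul := fun x v => x.1.1.1 *ᵥ v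
        one_smul := fun v => one_mulVec v
        mul_smul := fun x y v => (mulVec_mulVec _ _ _).symm }
    obtain ⟨v, hv, v0⟩ := P.isPGroup'.exists_fixed_point_of_prime_dvd_card_of_fixed_point (Fin 4 → F)
      (by rw [Nat.card_pi, Fin.prod_univ_succ]
          refine Dvd.dvd.mul_right ?_ _
          rcases h.cd with k | k <;> simp [k.1]) (a := 0) fun x => mulVec_zero _
    obtain ⟨i, hi⟩ := Function.ne_iff.1 v0.symm
    refine (h.prime.one_lt.trans_le (Nat.le_of_dvd Nat.card_pos (P.dvd_card_of_dvd_card d))).ne'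
      (card_eq_one.2 ((eq_bot_iff_forall _).2 fun x hx =>
      Subtype.ext (Units.ext ?_)))
    ext k j
    simpa [one_apply, Pi.single_apply] using congrFun (sg _ (hW f nf _ (sg v hv i hi)) j (by simp [hf]) ⟨x, hx⟩) k
  have all := two Λ le_rfl (IsPGroup.of_card (Nat.eq_prime_pow_of_unique_prime_dvd Nat.card_pos.ne'
    fun {r} hr d => pr r hr d (by rintro rfl; exact np d))) fun x => (mem_normalizer_iff.1 nU x).1
  exact fun x hx => scal_of_diag hf (h.diag4 hU (all x hx))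
    (h.diag4 hU (all _ ((mem_normalizer_iff.1 nf x).1 hx)))

end Cfsg.Agent.H2.S7
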