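import Cfsg.Agent.H8.C7.C0

/-! The kernel of the centraliser of `σ` on the `+1`-eigenspace. -/

set_option autoImplicit false
set_option linter.unusedSimpArgs false
set_option linter.unusedSectionVars false
set_option linter.unusedVariables false

namespace Cfsg.Agent.H2.S7

open Matrix Cfsg.Agent.H5.T3 Cfsg.Agent.H5.C5 Cfsg.Agent.H7

variable {F : Type*} [Field F] {M : Subgroup (GL (Fin 7) F)}

namespace Hy

variable {p : ℕ} {ω : F} (h : Hy p ω M) (hp : p ≠ 2)
include h hp

variable (hn : ¬ SLin M)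
include hn

theorem TD (g : CC M) {a : F} (e1 : (ru (h.two hp) M g).1 = a • 1) (e2 : (rv (h.two hp) M g).1.IsDiag)
    (i : Fin 3) : (rv (h.two hp) M g).1 i.succ i.succ ^ 2 = a ^ 2 := by
  have h2 := h.two hp
  have := CC_dec h2 g
  rw [← e2.diagonal_diag, e1, diag_bk] at this
  generalize hd : (rv h2 M g).1.diag = d at this
  have e3 : ∀ i, (rv h2 M g).1 i i = d i := congrFun hd
  obtain ⟨k1, k2, k3⟩ := h.mono3 hn hp ((InM.of g.2.1).congr this)
  simp only [div_eq_zero_iff, h2, or_false] at k1 k2 k3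
  rw [e3]
  fin_cases i <;> simp <;> grind

theorem kerL (g : CC M) (e : ru (h.two hp) M g = 1) :
    (rv (h.two hp) M g).1 = 1 ∨ (rv (h.two hp) M g).1 = -1 := by
  have h2 := h.two hp
  haveI := h.finF
  obtain ⟨u, -, -, u2⟩ := h.exu hp
  obtain ⟨f, c, hc, -, -, f2⟩ := h.exφ hp
  have nm : ∀ w, rv h2 M w ∈ Subgroup.normalizer (((ru h2 M).ker.map (rv h2 M)) : Set _) := fun w =>
    Subgroup.mem_normalizer_fintype (by
      rintro _ ⟨x, hx, rfl⟩
      exact ⟨w * x * w⁻¹, (MonoidHom.normal_ker _).conj_mem x hx w, by simp only [map_mul, map_inv]⟩)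
  have E : ∀ x ∈ (ru h2 M).ker.map (rv h2 M), rv h2 M u * x * (rv h2 M u)⁻¹ = x → x * x = 1 := by
    rintro _ ⟨x, hx, rfl⟩ e
    have d := h.diag4 u2 e
    have t := h.TD hp hn x (a := 1) (by rw [show ru h2 M x = 1 from hx]; simp) d
    have k := CC_det h2 x
    rw [h.det _ x.2.1, show ru h2 M x = 1 from hx, ← d.diagonal_diag, det_diagonal, Fin.prod_univ_succ] at k
    have k2 : (rv h2 M x).1 0 0 ^ 2 = 1 := by
      have := congrArg (· ^ 2) k
      simpa [-rs'_val, mul_pow, ← Finset.prod_pow, t] using this.symm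
    apply Units.ext
    rw [Units.val_mul, ← d.diagonal_diag, diagonal_mul_diagonal, Units.val_one, ← diagonal_one]
    congr 1; ext i
    rw [← sq]
    refine Fin.cases k2 (fun i => by simpa using t i) i
  obtain ⟨a, ha⟩ := h.L4 hp u2 (f2 ▸ h.Φv_ne hp hc) (nm u) (nm f) E _ ⟨g, e, rfl⟩
  have := congrArg Units.val (E _ ⟨g, e, rfl⟩ (mul_inv_eq_iff_eq_mul.2 (Units.ext (by simp [ha]))))
  rw [Units.val_mul, ha] at this
  rcases mul_self_eq_one_iff.1 (show a * a = 1 by simpa using congrFun (congrFun this 0) 0) with rfl | rfl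
  · exact Or.inl (by simpa using ha)
  · exact Or.inr (by simpa using ha)

theorem kerK (g : CC M) {a : F} (e : (ru (h.two hp) M g).1 = a • 1) :
    a ^ 7 = 1 ∧ (g.1.1 = a • 1 ∨ g.1.1 = a • σ) := by
  have h2 := h.two hp
  obtain ⟨u, -, -, u2⟩ := h.exu hp
  obtain ⟨f, c, hc, -, -, f2⟩ := h.exφ hp
  have dg : ∀ g : CC M, (ru h2 M g).1 = a • 1 → (rv h2 M g).1.IsDiag := fun g e => by
    refine h.diag4 u2 ?_
    have e1 : ru h2 M (g⁻¹ * u * g * u⁻¹) = 1 := by
      rw [map_mul, map_mul, map_mul, map_inv, map_inv, mul_inv_eq_one, mul_assoc, inv_mul_eq_iff_eq_mul]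
      exact Units.ext (by simp [e])
    rcases h.kerL hp hn _ e1 with k | k <;>
      rw [map_mul, map_mul, map_mul, map_inv, map_inv] at k
    · rw [← inv_mul_eq_one.1 (show (rv h2 M g)⁻¹ * (_ * _ * _) = 1 from
        Units.ext (by simpa only [mul_assoc, Units.val_one] using k))]
    · rw [Units.val_mul, Units.mul_inv_eq_iff_eq_mul] at k
      have := congrArg (· ^ 7) k
      have u7 : (rv h2 M u).1 ^ 7 = 1 := by
        rw [u2, diagonal_pow, ← diagonal_one]
        congr 1; ext i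
        simp [← pow_mul, mul_comm _ 7, pow_mul ω 7, h.one7]
      simp only [Units.val_mul, Units.conj_pow', neg_one_mul, Odd.neg_pow (by decide : Odd 7), u7,
        mul_one, Units.inv_mul] at this
      have : (1 : F) = -1 := by simpa using congrFun (congrFun this 0) 0
      exact (h2 (by linear_combination this)).elim
  obtain ⟨b, hb⟩ := scal_of_diag (f2 ▸ h.Φv_ne hp hc) (dg g e) (by
    simpa only [map_mul, map_inv] using dg (f * g * f⁻¹) (by simp [e]))
  have t := h.TD hp hn g e (dg g e) 0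
  have k := CC_det h2 g
  rw [h.det _ g.2.1, e, hb] at k
  rw [hb] at t
  simp at t k
  exact ⟨by linear_combination -k - a ^ 3 * (a ^ 2 + b ^ 2) * t,
    (sq_eq_sq_iff_eq_or_eq_neg.1 t).imp (CC_scal h2 e hb).1 (CC_scal h2 e hb).2⟩

end Hy

end Cfsg.Agent.H2.S7
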