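import Cfsg.Agent.H8.C7.T
import Cfsg.Agent.H8.C7.L4

/-! The centraliser of `σ` in odd characteristic: the kernel on the `+1`-eigenspace. -/

set_option autoImplicit false
set_option linter.unusedSimpArgs false
set_option linter.unusedSectionVars false
set_option linter.unusedVariables false

namespace Cfsg.Agent.H2.S7

open Matrix Cfsg.Agent.H5.T3 Cfsg.Agent.H5.C5 Cfsg.Agent.H7

variable {F : Type*} [Field F]

theorem half (h2 : (2 : F) ≠ 0) : (2⁻¹ + 2⁻¹ : F) = 1 := by field_simp; norm_num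

theorem BAu (h2 : (2 : F) ≠ 0) : (Bu F * Au F : M3 F) = 1 := by m7x <;> exact half h2
theorem BAv (h2 : (2 : F) ≠ 0) : (Bv F * Av F : M4 F) = 1 := by m7x <;> exact half h2
theorem BAuv : (Bu F * Av F) = 0 := by m7
theorem ABu : (Au F * Bu F : M7 F) = (2⁻¹ : F) • (1 + σ) := by m7
theorem ABv (h2 : (2 : F) ≠ 0) : (Av F * Bv F : M7 F) = (2⁻¹ : F) • (1 - σ) := by
  m7; field_simp; norm_num
theorem sumuv (h2 : (2 : F) ≠ 0) : (Au F * Bu F + Av F * Bv F : M7 F) = 1 := by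
  rw [ABv h2, ABu, ← smul_add, add_add_sub_cancel, ← two_smul F, smul_smul, inv_mul_cancel₀ h2, one_smul]

/-- the centraliser of `σ` -/
def CC (M : Subgroup (GL (Fin 7) F)) : Subgroup (GL (Fin 7) F) :=
  M ⊓ (Cm (Au F * Bu F) ⊓ Cm (Av F * Bv F))

variable {M : Subgroup (GL (Fin 7) F)}

theorem CCu : CC M ≤ Cm (Au F * Bu F) := fun _ h => h.2.1
theorem CCv : CC M ≤ Cm (Av F * Bv F) := fun _ h => h.2.2

def ru (h2 : (2 : F) ≠ 0) (M : Subgroup (GL (Fin 7) F)) := rs' (BAu h2) (CCu (M := M))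
def rv (h2 : (2 : F) ≠ 0) (M : Subgroup (GL (Fin 7) F)) := rs' (BAv h2) (CCv (M := M))

variable (h2 : (2 : F) ≠ 0)
include h2

theorem CC_dec (g : CC M) : g.1.1 = Au F * (ru h2 M g).1 * Bu F + Av F * (rv h2 M g).1 * Bv F := by
  rw [ru, rv, rs'_val, rs'_val, sandwich (BAu h2) (CCu g.2), sandwich (BAv h2) (CCv g.2),
    ← mul_add, sumuv h2, Matrix.mul_one]

theorem CC_det (g : CC M) : g.1.1.det = (ru h2 M g).1.det * (rv h2 M g).1.det := by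
  have : g.1.1 = (1 + Au F * (((ru h2 M g).1 - 1) * Bu F)) * (1 + Av F * (((rv h2 M g).1 - 1) * Bv F)) := by
    have k : ∀ X : Matrix (Fin 4) (Fin 7) F, Bu F * (Av F * X) = 0 := fun X => by
      rw [← Matrix.mul_assoc, BAuv, Matrix.zero_mul]
    rw [CC_dec h2]
    simp only [Matrix.sub_mul, Matrix.mul_sub, Matrix.one_mul, Matrix.mul_one, add_mul, mul_add, k,
      Matrix.mul_zero, Matrix.mul_assoc]
    rw [← sumuv h2]; abel
  rw [this, det_mul, det_one_add_mul_comm (Au F), det_one_add_mul_comm (Av F), Matrix.mul_assoc,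
    Matrix.mul_assoc, BAu h2, BAv h2]
  simp

theorem mem_CC {g : GL (Fin 7) F} (hg : g ∈ M) (h : g.1 * σ = σ * g.1) : g ∈ CC M := by
  refine ⟨hg, mem_Cm.2 ?_, mem_Cm.2 ?_⟩
  · rw [ABu, mul_smul_comm, smul_mul_assoc, mul_add, add_mul, h]; simp
  · rw [ABv h2, mul_smul_comm, smul_mul_assoc, mul_sub, sub_mul, h]; simp

theorem ex_CC {X : M7 F} (hX : InM M X) (h : X * σ = σ * X) : ∃ g : CC M, g.1.1 = X := by
  obtain ⟨g, hg, rfl⟩ := hX
  exact ⟨⟨g, mem_CC h2 hg h⟩, rfl⟩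

theorem CC_scal {g : CC M} {a b : F} (h1 : (ru h2 M g).1 = a • 1) (h3 : (rv h2 M g).1 = b • 1) :
    (b = a → g.1.1 = a • 1) ∧ (b = -a → g.1.1 = a • σ) := by
  rw [CC_dec h2, h1, h3]
  simp only [Matrix.mul_smul, Matrix.smul_mul, Matrix.mul_one, ABu, ABv h2]
  constructor <;> rintro rfl <;> match_scalars <;> field_simp <;> ring

omit h2

theorem diag_bk (a : F) (d : Fin 4 → F) : Au F * (a • (1 : M3 F)) * Bu F + Av F * diagonal d * Bv F =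
    bk (d 0) !![(d 1 + a) / 2, (d 1 - a) / 2; (d 1 - a) / 2, (d 1 + a) / 2]
      !![(d 2 + a) / 2, (d 2 - a) / 2; (d 2 - a) / 2, (d 2 + a) / 2]
      !![(d 3 + a) / 2, (d 3 - a) / 2; (d 3 - a) / 2, (d 3 + a) / 2] := by
  rw [Matrix.mul_smul, Matrix.mul_one, Matrix.smul_mul, ABu,
    show diagonal d = !![d 0, 0, 0, 0; 0, d 1, 0, 0; 0, 0, d 2, 0; 0, 0, 0, d 3] by m7x]
  simp [← Matrix.ext_iff, Fin.forall_fin_succ, σ, Av, Bv, bk, one_apply]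
  refine ⟨?_, ?_, ?_, ?_, ?_, ?_⟩ <;> constructor <;> ring

/-- `Φ` on the odd part -/
def Φu (ω : F) : M3 F :=
  !![ω - ω^6, ω^2 - ω^5, ω^4 - ω^3; ω^2 - ω^5, ω^4 - ω^3, ω - ω^6; ω^4 - ω^3, ω - ω^6, ω^2 - ω^5]

/-- `Φ` on the even part -/
def Φv (ω : F) : M4 F := !![1,2,2,2; 1,ω+ω^6,ω^2+ω^5,ω^4+ω^3; 1,ω^2+ω^5,ω^4+ω^3,ω+ω^6;
  1,ω^4+ω^3,ω+ω^6,ω^2+ω^5]

theorem det_Φv {ω : F} (h : Om7 ω) : (Φv ω).det = 49 := by
  simp [Φv, det_succ_row_zero, Fin.sum_univ_succ, Fin.succAbove]; grind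

namespace Hy

variable {p : ℕ} {ω : F} (h : Hy p ω M) (hp : p ≠ 2)
include h hp

theorem exu : ∃ g : CC M, g.1.1 = uu ω ∧ (ru (h.two hp) M g).1 = diagonal (fun i => ω ^ ![1, 4, 2] i) ∧
    (rv (h.two hp) M g).1 = diagonal fun i => ω ^ ![0, 1, 4, 2] i := by
  have := h.two hp
  obtain ⟨g, hg⟩ := ex_CC this h.hu (by m7)
  refine ⟨g, hg, ?_, ?_⟩ <;> simp only [ru, rv, rs'_val, hg] <;> m7x <;> field_simp <;> ring

theorem exδ : ∃ g : CC M, g.1.1 = δ ∧ (ru (h.two hp) M g).1 = !![0, 0, 1; 1, 0, 0; 0, 1, 0] := by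
  have := h.two hp
  obtain ⟨g, hg⟩ := ex_CC this h.hδ (by m7)
  refine ⟨g, hg, ?_⟩; simp only [ru, rs'_val, hg]; m7x <;> field_simp <;> ring

theorem exφ : ∃ g : CC M, ∃ c : F, 7 * c ^ 2 = -1 ∧ g.1.1 = c • Φ ω ∧ (ru (h.two hp) M g).1 = c • Φu ω ∧
    (rv (h.two hp) M g).1 = c • Φv ω := by
  have := h.two hp
  obtain ⟨c, hc, hφ⟩ := h.hφ
  obtain ⟨g, hg⟩ := ex_CC this hφ (by m7)
  refine ⟨g, c, hc, hg, ?_, ?_⟩ <;> simp only [ru, rv, rs'_val, hg, Φu, Φv] <;> m7x <;> field_simp <;>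
    ring

omit hp in
theorem Φu_ne {c : F} (hc : 7 * c ^ 2 = -1) (i j : Fin 3) : (c • Φu ω) i j ≠ 0 := by
  have c0 : c ≠ 0 := by rintro rfl; simp at hc
  have := h.ne (k := 1) (l := 6) (by norm_num)
  have := h.ne (k := 2) (l := 5) (by norm_num)
  have := h.ne (k := 4) (l := 3) (by norm_num)
  fin_cases i <;> fin_cases j <;> simp_all [Φu]

theorem Φv_ne {c : F} (hc : 7 * c ^ 2 = -1) (i j : Fin 4) : (c • Φv ω) i j ≠ 0 := by
  have c0 : c ≠ 0 := by rintro rfl; simp at hc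
  have k : ∀ a b : ℕ, (2 * a + 6 * (2 * b)) % 7 ≠ 0 → ω ^ a + ω ^ b ≠ 0 := fun a b e e' =>
    h.ne e (by rw [mul_comm 2, mul_comm 2, pow_mul, pow_mul]; linear_combination (ω ^ a - ω ^ b) * e')
  have := k 1 6 (by norm_num)
  have := k 2 5 (by norm_num)
  have := k 4 3 (by norm_num)
  have := h.two hp
  fin_cases i <;> fin_cases j <;> simp_all [Φv]

end Hy

end Cfsg.Agent.H2.S7
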