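import Cfsg.Agent.H8.C7.Set

/-! Weight decompositions for an element of order seven, and a lemma on `2`-groups. -/

set_option autoImplicit false
set_option linter.unusedSimpArgs false
set_option linter.unusedSectionVars false
set_option linter.unusedVariables false

namespace Cfsg.Agent.H2.S7

open Matrix Subgroup Finset
open scoped commutatorElement IsMulCommutative

variable {F : Type*} [Field F] {ω : F} {n : Type} [Fintype n] [DecidableEq n]

theorem geom7 (h : Om7 ω) (h7 : (7 : F) ≠ 0) (m : ℕ) :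
    ∑ k ∈ range 7, (ω ^ m) ^ k = if m % 7 = 0 then 7 else 0 := by
  split_ifs with e
  · rw [pow_eq_pow_mod m (om7 h), e]; simp
  · refine mul_left_cancel₀ (sub_ne_zero.2 (om_pow h h7 e)) ?_
    rw [mul_geom_sum, ← pow_mul, mul_comm, pow_mul, om7 h]; simp

theorem comp_vec (h : Om7 ω) (h7 : (7 : F) ≠ 0) {ι : Type*} (w : ι → ℕ) {W : Submodule F (ι → F)}
    (hW : ∀ v ∈ W, (fun i => ω ^ w i * v i) ∈ W) {v : ι → F} (hv : v ∈ W) (d : ℕ) :
    (fun i => if (w i + d) % 7 = 0 then v i else 0) ∈ W := by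
  have k : ∀ k : ℕ, (fun i => (ω ^ w i) ^ k * v i) ∈ W := fun k => by
    induction k with
    | zero => simpa using hv
    | succ k ih => simpa only [pow_succ', mul_assoc] using hW _ ih
  convert W.smul_mem 7⁻¹ (W.sum_mem fun j (_ : j ∈ range 7) => W.smul_mem ((ω ^ d) ^ j) (k j)) using 1
  ext i
  simp only [Pi.smul_apply, Finset.sum_apply, smul_eq_mul, ← mul_assoc, ← mul_pow, ← pow_add, ← sum_mul,
    geom7 h h7, add_comm d]
  split_ifs <;> simp [h7]

theorem comp_mat (h : Om7 ω) (h7 : (7 : F) ≠ 0) (e : n → ℕ) {U : GL n F}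
    (hU : U.1 = diagonal fun i => ω ^ e i) {B : Submodule F (Matrix n n F)}
    (hB : ∀ X ∈ B, U.1 * X * (U⁻¹).1 ∈ B) {X : Matrix n n F} (hX : X ∈ B) (d : ℕ) :
    (of fun i j => if (e i + 6 * e j + d) % 7 = 0 then X i j else 0) ∈ B := by
  have e1 : (U⁻¹).1 = diagonal fun i => ω ^ (6 * e i) := Units.inv_eq_of_mul_eq_one_right (by
    rw [hU, diagonal_mul_diagonal, ← diagonal_one]
    congr 1; ext i
    rw [← pow_add, show e i + 6 * e i = 7 * e i by ring, pow_mul, om7 h, one_pow])
  exact comp_vec h h7 (fun x : n × n => e x.1 + 6 * e x.2)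
    (W := B.comap (LinearEquiv.curry F F n n).toLinearMap) (fun v hv => by
      convert hB _ hv using 1
      refine iff_of_eq (congrArg (· ∈ B) ?_)
      ext i j
      show _ = (U.1 * (of fun i j => v (i, j)) * (U⁻¹).1) i j
      simp [hU, e1, pow_add, mul_right_comm]) (v := fun x => X x.1 x.2) hX d

/-- the span of a set of invertible matrices -/
abbrev sp (S : Set (GL n F)) : Submodule F (Matrix n n F) := Submodule.span F (Units.val '' S)

theorem sp_conj {S : Set (GL n F)} {g : GL n F} (h : ∀ x ∈ S, g * x * g⁻¹ ∈ S) :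
    ∀ X ∈ sp S, g.1 * X * (g⁻¹).1 ∈ sp S := fun X hX => by
  induction hX using Submodule.span_induction with
  | mem X hX => obtain ⟨y, hy, rfl⟩ := hX; exact Submodule.subset_span ⟨_, h y hy, rfl⟩
  | zero => simp
  | add X Y _ _ a b => rw [mul_add, add_mul]; exact add_mem a b
  | smul c X _ a => rw [mul_smul_comm, smul_mul_assoc]; exact Submodule.smul_mem _ c a

theorem sp_comm {S : Set (GL n F)} (h : ∀ x ∈ S, ∀ y ∈ S, Commute x y) :
    ∀ X ∈ sp S, ∀ Y ∈ sp S, Commute X Y := fun X hX Y hY => by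
  induction hX, hY using Submodule.span_induction₂ with
  | mem_mem X Y hX hY =>
    obtain ⟨a, ha, rfl⟩ := hX
    obtain ⟨b, hb, rfl⟩ := hY
    exact (h a ha b hb).units_val
  | zero_left => simp
  | zero_right => simp
  | add_left X Y Z _ _ _ a b => exact a.add_left b
  | add_right X Y Z _ _ _ a b => exact a.add_right b
  | smul_left c X Y _ _ a => exact a.smul_left c
  | smul_right c X Y _ _ a => exact a.smul_right c

/-- the span of commuting `p'`-elements is reduced -/
theorem sp_red [Finite F] [Nonempty n] {p : ℕ} (hp : p.Prime) [CharP F p] {S : Set (GL n F)}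
    (h : ∀ x ∈ S, ∀ y ∈ S, Commute x y) {m : ℕ} (hm : ¬ p ∣ m) (hS : ∀ x ∈ S, x ^ m = 1)
    {X : Matrix n n F} (hX : X ∈ sp S) (hn : IsNilpotent X) : X = 0 := by
  haveI := Fact.mk hp
  letI := Fintype.ofFinite F
  obtain ⟨a, -, ha⟩ := FiniteField.card F p
  have m0 : 0 < m := Nat.pos_of_ne_zero (by rintro rfl; simp at hm)
  have k : ∀ b, ∀ X ∈ sp S, X ^ p ^ (a * (m.totient * b)) = X := fun b X hX => by
    induction hX using Submodule.span_induction with
    | mem X hX =>
      obtain ⟨y, hy, rfl⟩ := hX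
      have := (Nat.ModEq.pow_totient ((hp.coprime_iff_not_dvd.2 hm))).pow (a * b)
      rw [← Units.val_pow_eq_pow_val, mul_left_comm, pow_mul, pow_eq_pow_mod _ (hS y hy), this,
        ← pow_eq_pow_mod _ (hS y hy), one_pow, pow_one]
    | zero => exact zero_pow (pow_pos hp.pos _).ne'
    | add X Y a1 a2 a b => rw [add_pow_char_pow_of_commute p _ (sp_comm h X a1 Y a2), a, b]
    | smul c X _ a => rw [_root_.smul_pow, a, pow_mul, ← ha, FiniteField.pow_card_pow]
  obtain ⟨b, hb⟩ := hn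
  rw [← k b X hX]
  refine pow_eq_zero_of_le ((Nat.lt_pow_self hp.one_lt).le.trans' ?_) hb
  exact (Nat.le_mul_of_pos_left _ (Nat.totient_pos.2 m0)).trans (Nat.le_mul_of_pos_left _ a.pos)

theorem scal_of_diag [Nonempty n] {f X : GL n F} (hf : ∀ i j, f.1 i j ≠ 0) (h1 : X.1.IsDiag)
    (h2 : (f * X * f⁻¹).1.IsDiag) : H7.IsScal X.1 := by
  obtain ⟨i⟩ := ‹Nonempty n›
  have e : (f * X * f⁻¹).1 * f.1 = f.1 * X.1 := by rw [← Units.val_mul, inv_mul_cancel_right]; rfl
  rw [← h1.diagonal_diag, ← h2.diagonal_diag] at e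
  refine ⟨(f * X * f⁻¹).1 i i, ?_⟩
  rw [← h1.diagonal_diag, smul_one_eq_diagonal]
  congr 1; ext j
  have := congrFun (congrFun e i) j
  rw [diagonal_mul, mul_diagonal, mul_comm] at this
  exact (mul_left_cancel₀ (hf i j) this).symm

/-- the difference-set computation -/
theorem comm_ds {G : Type*} [Group G] (φ : G →* G) (h7 : ∀ x, φ^[7] x = x)
    (c1 : ∀ a b : G, ⁅a, b⁆ ∈ center G) (c2 : ∀ a b : G, φ ⁅a, b⁆ = ⁅a, b⁆)
    (c3 : ∀ a b : G, ⁅a, b⁆ * ⁅a, b⁆ = 1) (g : G) (i : ℕ) (hi : i = 1 ∨ i = 2) (j : ℕ) :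
    Commute (g * φ^[i] g * φ^[3] g) (φ^[j] (g * φ^[i] g * φ^[3] g)) := by
  let c : G → G → Additive (center G) := fun a b => Additive.ofMul ⟨⁅a, b⁆, c1 a b⟩
  have l : ∀ a b x, c (a * b) x = c a x + c b x := fun a b x => congrArg Additive.ofMul (Subtype.ext (by
    show ⁅a * b, x⁆ = ⁅a, x⁆ * ⁅b, x⁆
    rw [mem_center_iff.1 (c1 b x), commutatorElement_def a, ← mul_assoc, ← mul_assoc, ← mul_assoc,
      ← mem_center_iff.1 (c1 b x) a]
    simp only [commutatorElement_def]; group))
  have t : ∀ a b, c a b + c a b = 0 := fun a b => congrArg Additive.ofMul (Subtype.ext (c3 a b))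
  have s : ∀ a b, c a b = c b a := fun a b => congrArg Additive.ofMul (Subtype.ext (by
    show ⁅a, b⁆ = ⁅b, a⁆
    rw [← commutatorElement_inv, inv_eq_iff_mul_eq_one, c3]))
  have f : ∀ k a b, c (φ^[k] a) (φ^[k] b) = c a b := fun k => by
    induction k with
    | zero => exact fun _ _ => rfl
    | succ k ih => exact fun a b => (ih _ _).trans (congrArg Additive.ofMul (Subtype.ext (by
        show ⁅φ a, φ b⁆ = ⁅a, b⁆
        rw [← map_commutatorElement, c2])))
  have p : ∀ k x, φ^[k] x = φ^[k % 7] x := fun k x => by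
    conv_lhs => rw [← Nat.mod_add_div k 7, Function.iterate_add_apply, Function.iterate_mul,
      Function.iterate_fixed (h7 x)]
  have γ : ∀ a b, c (φ^[a] g) (φ^[b] g) = c g (φ^[(b + 6 * a) % 7] g) := fun a b => by
    rw [← p, ← f a g, ← Function.iterate_add_apply, p (a + _), p b]
    rw [show (a + (b + 6 * a)) % 7 = b % 7 by omega]
  have γ' : ∀ a b, c (φ^[a] g) (φ^[b] g) = c g (φ^[(a + 6 * b) % 7] g) := fun a b => by rw [s, γ]
  have γ0 : c g (φ^[0] g) = 0 := congrArg Additive.ofMul (Subtype.ext (commutatorElement_self g))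
  have γ4 : c g (φ^[4] g) = c g (φ^[3] g) := γ' 0 4
  have γ5 : c g (φ^[5] g) = c g (φ^[2] g) := γ' 0 5
  have γ6 : c g (φ^[6] g) = c g (φ^[1] g) := γ' 0 6
  have r : ∀ x a b, c x (a * b) = c x a + c x b := fun x a b => by rw [s, l, s a, s b]
  refine commutatorElement_eq_one_iff_commute.1 (congrArg (fun x => (Additive.toMul x).1)
    (show c _ _ = 0 from ?_))
  rw [p j, iterate_map_mul, iterate_map_mul, ← Function.iterate_add_apply,
    ← Function.iterate_add_apply, show g * φ^[i] g * φ^[3] g = φ^[0] g * φ^[i] g * φ^[3] g from rfl]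
  have := Nat.mod_lt j (by norm_num : 0 < 7)
  generalize j % 7 = j at *
  have t1 := t g (φ^[1] g)
  have t2 := t g (φ^[2] g)
  have t3 := t g (φ^[3] g)
  simp only [l, r, γ]
  rcases hi with rfl | rfl <;> interval_cases j <;> simp only [Nat.reduceAdd, Nat.reduceMul,
    Nat.reduceMod, γ0, γ4, γ5, γ6] <;> first | linear_combination (norm := abel1) t1 + t2 + t3 |
      linear_combination (norm := abel1) t1 + t2 + t3 + t1 |
      linear_combination (norm := abel1) t1 + t2 + t3 + t2 |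
      linear_combination (norm := abel1) t1 + t2 + t3 + t3

end Cfsg.Agent.H2.S7
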